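import Cfsg.Agent.Lib.Fischer.Parity.Sign
import Cfsg.Agent.Lib.Fischer.MaxCommuting.Octads
import Cfsg.Agent.Lib.Fischer.TypeTwentyThreeSign
import Cfsg.Agent.Lib.Fischer.TypeTwentyFourCount

/-!
The members commuting with two commuting members of a group of type M(24): they generate the centralizer of
the two, an automorphism of it respecting them is inner or acts oddly on them, and exchanging the two is odd.
-/

set_option autoImplicit false
set_option linter.unusedSectionVars false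

namespace CfsgLib.Fischer.UniqueTwentyFour

open CfsgLib.Fischer CfsgLib.InvChar.FischerProducts CfsgLib.Fischer.ClassSign

/-- The members in a subgroup commuting with two members. -/
def pairSet {G : Type*} [Group G] (D : Set G) (d u : G) :
    Set (Subgroup.closure (perp D d ∩ perp D u)) :=
  {x | (x : G) ∈ perp D d ∩ perp D u}

variable {G : Type*} [Group G] [Finite G] {D : Set G}
variable (hD : Cfsg.IsThreeTranspositionGroup D) (hprim : Cfsg.IsPrimitiveUnderConj D)
  (ht : Cfsg.IsOfTypeM24 G D)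

include hD hprim ht

theorem perp_symm {d u : G} (hd : d ∈ D) (hu : u ∈ perp D d) : d ∈ perp D u :=
  ⟨hd, Ne.symm hu.2.1, hu.2.2.symm⟩

/-- A member is a product of seven others commuting with it and with a given neighbour. -/
theorem mem_closure_pair {d u : G} (hd : d ∈ D) (hu : u ∈ perp D d) :
    u ∈ Subgroup.closure (perp D d ∩ perp D u) := by
  classical
  let _ : Fintype G := Fintype.ofFinite G
  obtain ⟨L₀, hL₀, hsub⟩ := MaxCommuting.exists_isMax (D := D) (S := {d, u})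
    (by rintro x (rfl | rfl) <;> [exact hd; exact hu.1])
    (by rintro x (rfl | rfl) y (rfl | rfl) <;>
      [exact Commute.refl _; exact hu.2.2; exact hu.2.2.symm; exact Commute.refl _])
  set L := L₀.toFinset with hL₁
  have hL : MaxCommuting.IsMax D (L : Set G) := by rw [hL₁, Set.coe_toFinset]; exact hL₀
  have hdL : d ∈ L := Set.mem_toFinset.2 (hsub (Or.inl rfl))
  have huL : u ∈ L := Set.mem_toFinset.2 (hsub (Or.inr rfl))
  have hcard := MaxCommuting.card_eq_twentyFour hD hprim ht hL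
  have hne : d ≠ u := Ne.symm hu.2.1
  obtain ⟨Q₁, hQ₁, hQ₁L, hQ₁c⟩ := Finset.exists_subsuperset_card_eq (s := {d, u}) (t := L) (n := 5)
    (by simp [Finset.insert_subset_iff, hdL, huL]) (by rw [Finset.card_pair hne]; norm_num) (by omega)
  obtain ⟨O₁, hO₁, hQO₁⟩ := MaxCommuting.exists_octad hD hprim ht hL hQ₁L hQ₁c
  have hdO : d ∈ O₁ := hQO₁ (hQ₁ (by simp))
  have huO : u ∈ O₁ := hQO₁ (hQ₁ (by simp))
  obtain ⟨x, hxL, hxO⟩ := Finset.exists_mem_notMem_of_card_lt_card (show O₁.card < L.card by rw [hO₁.2.1]; omega)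
  obtain ⟨R, hR, hRc⟩ := Finset.exists_subset_card_eq (s := (O₁.erase d).erase u) (n := 3) (by
    rw [Finset.card_erase_of_mem (by simp [huO, hne.symm]), Finset.card_erase_of_mem hdO, hO₁.2.1]; norm_num)
  have hR' : ∀ r ∈ R, r ∈ O₁ ∧ r ≠ u ∧ r ≠ d := fun r hr => by
    have := hR hr
    simp only [Finset.mem_erase] at this
    exact ⟨this.2.2, this.1, this.2.1⟩
  have huR : u ∉ R := fun k => (hR' u k).2.1 rfl
  have hdR : d ∉ R := fun k => (hR' d k).2.2 rfl
  have hxR : x ∉ R := fun k => hxO (hR' x k).1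
  have hxu : x ≠ u := fun k => hxO (k ▸ huO)
  obtain ⟨O₂, hO₂, hPO₂⟩ := MaxCommuting.exists_octad hD hprim ht hL (P := insert u (insert x R))
    (Finset.insert_subset huL (Finset.insert_subset hxL fun r hr => hO₁.1 (hR' r hr).1))
    (by rw [Finset.card_insert_of_notMem (by simp [Ne.symm hxu, huR]), Finset.card_insert_of_notMem hxR, hRc])
  have hdO₂ : d ∉ O₂ := by
    intro h
    have h5 : 5 ≤ (O₁ ∩ O₂).card := by
      refine le_trans (by rw [Finset.card_insert_of_notMem (by simp [hne, hdR]), Finset.card_insert_of_notMem huR, hRc])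
        (Finset.card_le_card (show insert d (insert u R) ⊆ O₁ ∩ O₂ from fun r hr => ?_))
      simp only [Finset.mem_insert] at hr
      rcases hr with rfl | rfl | hr
      · exact Finset.mem_inter.2 ⟨hdO, h⟩
      · exact Finset.mem_inter.2 ⟨huO, hPO₂ (by simp)⟩
      · exact Finset.mem_inter.2 ⟨(hR' r hr).1, hPO₂ (by simp [hr])⟩
    rw [MaxCommuting.octad_eq hD hprim ht hL hO₁ hO₂ h5] at hxO
    exact hxO (hPO₂ (by simp))
  have huO₂ : u ∈ O₂ := hPO₂ (by simp)
  have hw := MaxCommuting.word_union hD hprim ht hL (A := {u}) (B := O₂.erase u)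
    (Finset.singleton_subset_iff.2 huL) ((Finset.erase_subset _ _).trans hO₂.1)
    (Finset.disjoint_singleton_left.2 (Finset.notMem_erase u O₂))
  rw [← Finset.insert_eq, Finset.insert_erase huO₂, hO₂.2.2, MaxCommuting.word_singleton] at hw
  suffices hmem : MaxCommuting.word (O₂.erase u) ∈ Subgroup.closure (perp D d ∩ perp D u) by
    have := inv_mem hmem
    rwa [← eq_inv_of_mul_eq_one_left hw.symm] at this
  refine MaxCommuting.word_mem fun a ha => Subgroup.subset_closure ?_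
  obtain ⟨hau, haO⟩ := Finset.mem_erase.1 ha
  have haL := hO₂.1 haO
  exact ⟨⟨hL.subset haL, fun k => hdO₂ (k ▸ haO), hL.comm d hdL a haL⟩, hL.subset haL, hau, hL.comm u huL a haL⟩

/-- The common neighbours generate the centralizer of the two. -/
theorem centralizer_pair {d u : G} (hd : d ∈ D) (hu : u ∈ perp D d) :
    Subgroup.centralizer ({d, u} : Set G) = Subgroup.closure (perp D d ∩ perp D u) := by
  refine le_antisymm ((Parity.pair_le hD hprim ht hd hu).trans ((Subgroup.closure_le _).2 ?_))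
    ((Subgroup.closure_le _).2 fun x hx => Subgroup.mem_centralizer_iff.2 ?_)
  · rintro m ⟨hm, hmd, hmu⟩
    by_cases h1 : m = d
    · subst h1
      have := mem_closure_pair hD hprim ht hu.1 (perp_symm hD hprim ht hd hu)
      rwa [Set.inter_comm] at this
    · by_cases h2 : m = u
      · subst h2
        exact mem_closure_pair hD hprim ht hd hu
      · exact Subgroup.subset_closure ⟨⟨hm, h1, hmd.symm⟩, hm, h2, hmu.symm⟩
  · rintro y (rfl | rfl)
    · exact hx.1.2.2.eq
    · exact hx.2.2.2.eq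

theorem mem_pair_closure_iff {d u : G} (hd : d ∈ D) (hu : u ∈ perp D d) {x : G} :
    x ∈ Subgroup.closure (perp D d ∩ perp D u) ↔ Commute x d ∧ Commute x u := by
  rw [← centralizer_pair hD hprim ht hd hu, Subgroup.mem_centralizer_iff]
  constructor
  · exact fun h => ⟨(h d (by simp)).symm, (h u (by simp)).symm⟩
  · rintro ⟨h1, h2⟩ y (rfl | rfl)
    · exact h1.symm.eq
    · exact h2.symm.eq

/-- Two commuting members are exchanged. -/
theorem exists_swap {d u : G} (hd : d ∈ D) (hu : u ∈ perp D d) :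
    ∃ s : G, s * d * s⁻¹ = u ∧ s * u * s⁻¹ = d := by
  obtain ⟨y, hy, hyd, hyu⟩ : ∃ y ∈ D, ¬ Commute y d ∧ ¬ Commute y u := by
    by_contra hcon
    push Not at hcon
    have hsub : D ⊆ insert d (insert u (perp D d ∪ perp D u)) := by
      intro y hy
      by_cases h1 : y = d
      · exact Or.inl h1
      by_cases h2 : y = u
      · exact Or.inr (Or.inl h2)
      refine Or.inr (Or.inr ?_)
      by_cases h3 : Commute y d
      · exact Or.inl ⟨hy, h1, h3.symm⟩
      · exact Or.inr ⟨hy, h2, (hcon y hy h3).symm⟩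
    have h := (Set.ncard_le_ncard hsub (Set.toFinite _)).trans ((Set.ncard_insert_le _ _).trans
      (Nat.succ_le_succ ((Set.ncard_insert_le _ _).trans (Nat.succ_le_succ (Set.ncard_union_le _ _)))))
    rw [TypeTwentyFour.ncard_eq hD hprim ht, TypeTwentyFour.ncard_perp hD hprim ht hd,
      TypeTwentyFour.ncard_perp hD hprim ht hu.1] at h
    omega
  have hyy : y * y = 1 := sq_eq_one hD.1 hy
  have hdd : d * d = 1 := sq_eq_one hD.1 hd
  have huu : u * u = 1 := sq_eq_one hD.1 hu.1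
  have key : ∀ {a b : G}, a * a = 1 → b * b = 1 → Commute a b → y * a * y = a * y * a → y * b * y = b * y * b →
      y * (a * b) * y * a * (y * (a * b) * y) = b := by
    intro a b ha hb hab h1 h2
    calc y * (a * b) * y * a * (y * (a * b) * y) = y * (a * b) * (y * a * y) * (a * b) * y := by group
      _ = y * (a * b) * a * y * (a * a) * b * y := by rw [h1]; group
      _ = y * (b * a) * a * y * b * y := by rw [ha, hab.eq]; group
      _ = y * b * (a * a) * (y * b * y) := by group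
      _ = y * (b * b) * y * b := by rw [ha, h2]; group
      _ = b := by rw [hb]; simp [hyy]
  have hsinv : (y * (d * u) * y)⁻¹ = y * (d * u) * y := by
    rw [mul_inv_rev, mul_inv_rev, mul_inv_rev, inv_eq hD.1 hy, inv_eq hD.1 hd, inv_eq hD.1 hu.1, ← hu.2.2.eq,
      ← mul_assoc]
  refine ⟨y * (d * u) * y, ?_, ?_⟩
  · rw [hsinv]
    exact key hdd huu hu.2.2 (braid hD.1 hy hd hyd) (braid hD.1 hy hu.1 hyu)
  · rw [hsinv]
    have := key huu hdd hu.2.2.symm (braid hD.1 hy hu.1 hyu) (braid hD.1 hy hd hyd)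
    rwa [← hu.2.2.eq] at this

/-- An automorphism respecting the common neighbours is inner or odd on them. -/
theorem inner_or_odd {d u : G} (hd : d ∈ D) (hu : u ∈ perp D d)
    (α : Subgroup.closure (perp D d ∩ perp D u) ≃* Subgroup.closure (perp D d ∩ perp D u))
    (hα : ∀ x, α x ∈ pairSet D d u ↔ x ∈ pairSet D d u) :
    (∃ h : Subgroup.closure (perp D d ∩ perp D u), ∀ x ∈ pairSet D d u, α x = h * x * h⁻¹) ∨
      sg α (pairSet D d u) = -1 := by
  have hG := TypeTwentyFour.good hD hprim ht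
  let H : Subgroup G := Subgroup.closure (perp D d)
  let E : Set (H ⧸ Subgroup.center H) := imageSet D d H
  have hQ := TypeTwentyFour.good_at hD hprim ht hd
  have hQp := TypeTwentyFour.primitive_at hD hprim ht hd
  have hQt := TypeTwentyFour.type23_at hD hprim ht hd
  let K : Subgroup G := Subgroup.closure (perp D d ∩ perp D u)
  have hKH : K ≤ H := Subgroup.closure_mono Set.inter_subset_left
  let π := QuotientGroup.mk' (Subgroup.center H)
  let u₁ : H := ⟨u, Subgroup.subset_closure hu⟩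
  have hq : π u₁ ∈ E := ⟨u₁, hu, rfl⟩
  let M : Subgroup (H ⧸ Subgroup.center H) := Subgroup.closure (perp E (π u₁))
  let E₂ : Set (M ⧸ Subgroup.center M) := imageSet E (π u₁) M
  have hQG := TypeTwentyThree.good hQ.tt hQp hQt
  have h22 := TypeTwentyThree.type22_at hQ.tt hQp hQt hq
  have hg22 := TypeTwentyThree.good_at hQ.tt hQp hQt hq
  have hp22 := TypeTwentyThree.primitive_at hQ.tt hQp hQt hq
  let f : K →* H ⧸ Subgroup.center H := π.comp (Subgroup.inclusion hKH)
  have hfP : ∀ x : K, (x : G) ∈ perp D d ∩ perp D u → f x ∈ perp E (π u₁) := fun x hx =>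
    ⟨⟨_, hx.1, rfl⟩, fun k => hx.2.2.1 (congrArg Subtype.val (TypeTwentyThree.mk_injOn hG hd (H := H) rfl
      (x := Subgroup.inclusion hKH x) (y := u₁) hx.1 hu k)),
      (show Commute u₁ (Subgroup.inclusion hKH x) from Subtype.ext hx.2.2.2.eq).map π⟩
  have hfM : ∀ x : K, f x ∈ M := by
    rintro ⟨x, hx⟩
    induction hx using Subgroup.closure_induction with
    | mem m hm => exact Subgroup.subset_closure (hfP ⟨m, Subgroup.subset_closure hm⟩ hm)
    | one => exact (map_one f).symm ▸ one_mem M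
    | mul a b ha hb iha ihb =>
      exact (map_mul f ⟨a, ha⟩ ⟨b, hb⟩).symm ▸ mul_mem iha ihb
    | inv a ha iha => exact (map_inv f ⟨a, ha⟩).symm ▸ inv_mem iha
  let Θ : K →* M ⧸ Subgroup.center M := (QuotientGroup.mk' _).comp (f.codRestrict M hfM)
  have hΘP : ∀ x : K, x ∈ pairSet D d u → Θ x ∈ E₂ := fun x hx => ⟨⟨f x, hfM x⟩, hfP x hx, rfl⟩
  have hΘinj : ∀ x ∈ pairSet D d u, ∀ y ∈ pairSet D d u, Θ x = Θ y → x = y := by
    intro x hx y hy h
    have h1 : f x = f y := congrArg Subtype.val (TypeTwentyThree.mk_injOn hQG hq (H := M) rfl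
      (x := ⟨f x, hfM x⟩) (y := ⟨f y, hfM y⟩) (hfP x hx) (hfP y hy) h)
    exact Subtype.ext (congrArg (fun z : H => (z : G)) (TypeTwentyThree.mk_injOn hG hd (H := H) rfl
      (x := Subgroup.inclusion hKH x) (y := Subgroup.inclusion hKH y) hx.1 hy.1 h1))
  have hlift : ∀ q ∈ E₂, ∃ x ∈ pairSet D d u, Θ x = q := by
    rintro _ ⟨⟨_, hm⟩, ⟨⟨z, hz, rfl⟩, hne, hc⟩, rfl⟩
    have hzu : Commute u (z : G) := TypeTwentyThree.commute_of_mk hG hd (H := H) rfl (x := u₁) hu hz hc
    have hzP : (z : G) ∈ perp D d ∩ perp D u :=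
      ⟨hz, hz.1, fun k => hne (congrArg π (Subtype.ext k : z = u₁)), hzu⟩
    exact ⟨⟨z, Subgroup.subset_closure hzP⟩, hzP, rfl⟩
  have hΘsurj : Function.Surjective Θ := by
    rw [← MonoidHom.range_eq_top, eq_top_iff, ← hg22.tt.2.2, Subgroup.closure_le]
    intro q hq
    obtain ⟨x, -, rfl⟩ := hlift q hq
    exact ⟨x, rfl⟩
  have hconjP : ∀ (k x : K), x ∈ pairSet D d u → k * x * k⁻¹ ∈ pairSet D d u := by
    intro k x hx
    obtain ⟨h1, h2⟩ := (mem_pair_closure_iff hD hprim ht hd hu).1 k.2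
    exact ⟨(TypeTwentyTwo.conj_mem_perp_iff hD h1).2 hx.1, (TypeTwentyTwo.conj_mem_perp_iff hD h2).2 hx.2⟩
  have hker : ∀ k : K, Θ k = 1 ↔ ∀ x ∈ pairSet D d u, k * x * k⁻¹ = x := by
    intro k
    refine ⟨fun h x hx => hΘinj _ (hconjP k x hx) _ hx (by simp [h]), fun h => ?_⟩
    have : Θ k ∈ Subgroup.center (M ⧸ Subgroup.center M) := mem_center hg22.tt.2.2 fun q hq => by
      obtain ⟨x, hx, rfl⟩ := hlift q hq
      exact mul_inv_eq_iff_eq_mul.1 (by rw [← map_inv, ← map_mul, ← map_mul, h x hx])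
    rwa [hg22.center, Subgroup.mem_bot] at this
  have hle : Θ.ker ≤ (Θ.comp α.toMonoidHom).ker := by
    intro k hk
    refine (hker (α k)).2 fun x hx => ?_
    obtain ⟨y, rfl⟩ := α.surjective x
    rw [← map_inv, ← map_mul, ← map_mul, (hker k).1 hk y ((hα y).1 hx)]
  let ψ₀ : (M ⧸ Subgroup.center M) →* (M ⧸ Subgroup.center M) :=
    Θ.liftOfSurjective hΘsurj ⟨Θ.comp α.toMonoidHom, hle⟩
  have hψ₀ : ∀ k, ψ₀ (Θ k) = Θ (α k) := fun k =>
    MonoidHom.liftOfRightInverse_comp_apply Θ _ _ ⟨Θ.comp α.toMonoidHom, hle⟩ k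
  have hsur : Function.Surjective ψ₀ := fun q => by
    obtain ⟨k, rfl⟩ := hΘsurj q
    obtain ⟨j, rfl⟩ := α.surjective k
    exact ⟨Θ j, hψ₀ j⟩
  let ψ : (M ⧸ Subgroup.center M) ≃* (M ⧸ Subgroup.center M) :=
    MulEquiv.ofBijective ψ₀ ⟨Finite.injective_iff_surjective.2 hsur, hsur⟩
  have hψ : ∀ k, ψ (Θ k) = Θ (α k) := hψ₀
  have hψE : ∀ q, ψ q ∈ E₂ ↔ q ∈ E₂ := by
    intro q
    constructor
    · intro h
      obtain ⟨x, hx, e⟩ := hlift _ h
      obtain ⟨y, rfl⟩ := α.surjective x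
      rw [← hψ] at e
      exact ψ.injective e ▸ hΘP y ((hα y).1 hx)
    · intro h
      obtain ⟨x, hx, rfl⟩ := hlift q h
      exact hψ x ▸ hΘP _ ((hα x).2 hx)
  have hP : sg α (pairSet D d u) = sg ψ E₂ := by
    refine sg_congr hα hψE (fun x => ⟨Θ x, hΘP x x.2⟩) ⟨fun x y h => Subtype.ext
      (hΘinj x x.2 y y.2 (congrArg Subtype.val h)), ?_⟩ fun x => (hψ x).symm
    rintro ⟨q, hq⟩
    obtain ⟨x, hx, rfl⟩ := hlift q hq
    exact ⟨⟨x, hx⟩, rfl⟩
  have hconj : ∀ (y : M ⧸ Subgroup.center M) q, MulAut.conj y q ∈ E₂ ↔ q ∈ E₂ := fun y q =>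
    conj_iff hg22.tt y
  obtain ⟨q₀, hq₀, -⟩ := id hp22.2.1
  obtain ⟨y, hy⟩ := hg22.conj _ ((hψE q₀).2 hq₀) _ hq₀
  rcases TypeTwentyTwo.inner_or_odd hg22.tt hp22 h22 (φ := ψ.trans (MulAut.conj y))
      (fun q => (hconj y _).trans (hψE q)) hq₀ hy with ⟨t, -, ht'⟩ | ⟨hs, -⟩
  · left
    obtain ⟨h, hh⟩ := hΘsurj (y⁻¹ * t)
    refine ⟨h, fun x hx => hΘinj _ ((hα x).2 hx) _ (hconjP h x hx) ?_⟩
    have h1 : y * ψ (Θ x) * y⁻¹ = t * Θ x * t⁻¹ := ht' (Θ x)
    rw [map_mul, map_mul, map_inv, hh, ← hψ,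
      show ψ (Θ x) = y⁻¹ * (y * ψ (Θ x) * y⁻¹) * y by group, h1]
    group
  · right
    rw [sg_trans hψE (hconj y), sg_conj_of_commutator hg22.tt
      (TypeTwentyTwo.commutator_eq_top hg22.tt hp22 h22), one_mul] at hs
    rw [hP, hs]

/-- Exchanging the two members is odd on their common neighbours. -/
theorem swap_odd {d u s : G} (hd : d ∈ D) (hu : u ∈ perp D d) (h1 : s * d * s⁻¹ = u) (h2 : s * u * s⁻¹ = d) :
    ∃ β : Subgroup.closure (perp D d ∩ perp D u) ≃* Subgroup.closure (perp D d ∩ perp D u),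
      (∀ x, ((β x : Subgroup.closure (perp D d ∩ perp D u)) : G) = s * x * s⁻¹) ∧
        (∀ x, β x ∈ pairSet D d u ↔ x ∈ pairSet D d u) ∧ sg β (pairSet D d u) = -1 := by
  have hP : ∀ x, s * x * s⁻¹ ∈ perp D d ∩ perp D u ↔ x ∈ perp D d ∩ perp D u := by
    intro x
    have hc : ∀ {a b : G}, s * a * s⁻¹ = b → (s * x * s⁻¹ ∈ perp D b ↔ x ∈ perp D a) := by
      rintro a _ rfl
      exact ⟨fun h => ⟨(conj_iff hD s).1 h.1, fun k => h.2.1 (k ▸ rfl), (conj_commute_iff s _ _).1 h.2.2⟩,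
        fun h => ⟨(conj_iff hD s).2 h.1, fun k => h.2.1 (mul_left_cancel (mul_right_cancel k)),
          (conj_commute_iff s _ _).2 h.2.2⟩⟩
    rw [Set.mem_inter_iff, Set.mem_inter_iff, hc h2, hc h1]
    exact and_comm
  have hmap : (Subgroup.closure (perp D d ∩ perp D u)).map (MulAut.conj s).toMonoidHom =
      Subgroup.closure (perp D d ∩ perp D u) := by
    rw [MonoidHom.map_closure]
    congr 1
    ext x
    constructor
    · rintro ⟨y, hy, rfl⟩
      exact (hP y).2 hy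
    · intro hx
      exact ⟨s⁻¹ * x * s, (hP _).1 (by rwa [show s * (s⁻¹ * x * s) * s⁻¹ = x by group]),
        by simp [MulAut.conj_apply, mul_assoc]⟩
  obtain ⟨β, hβ⟩ : ∃ β : Subgroup.closure (perp D d ∩ perp D u) ≃* Subgroup.closure (perp D d ∩ perp D u),
      ∀ x, ((β x : Subgroup.closure (perp D d ∩ perp D u)) : G) = s * x * s⁻¹ :=
    ⟨((MulAut.conj s).subgroupMap _).trans (MulEquiv.subgroupCongr hmap), fun x => rfl⟩
  have hβP : ∀ x, β x ∈ pairSet D d u ↔ x ∈ pairSet D d u := fun x => by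
    show ((β x : Subgroup.closure (perp D d ∩ perp D u)) : G) ∈ perp D d ∩ perp D u ↔ _
    rw [hβ]
    exact hP x
  refine ⟨β, hβ, hβP, (inner_or_odd hD hprim ht hd hu β hβP).resolve_left ?_⟩
  rintro ⟨h, hh⟩
  have hcen : ∀ x ∈ perp D d ∩ perp D u, Commute x ((h : G)⁻¹ * s) := fun x hx => by
    have e := congrArg Subtype.val (hh ⟨x, Subgroup.subset_closure hx⟩ hx)
    rw [hβ] at e
    simp only [Subgroup.coe_mul, Subgroup.coe_inv] at e
    refine (mul_inv_eq_iff_eq_mul.1 ?_ : ((h : G)⁻¹ * s) * x = x * ((h : G)⁻¹ * s)).symm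
    rw [show (h : G)⁻¹ * s * x * ((h : G)⁻¹ * s)⁻¹ = (h : G)⁻¹ * (s * x * s⁻¹) * h by group, e]
    group
  have hle : Subgroup.closure (perp D d ∩ perp D u) ≤ Subgroup.centralizer ({(h : G)⁻¹ * s} : Set G) :=
    (Subgroup.closure_le _).2 fun x hx => Subgroup.mem_centralizer_singleton_iff.2 (hcen x hx).eq
  have hcu : Commute u ((h : G)⁻¹ * s) :=
    Subgroup.mem_centralizer_singleton_iff.1 (hle (mem_closure_pair hD hprim ht hd hu))
  obtain ⟨hhd, -⟩ := (mem_pair_closure_iff hD hprim ht hd hu).1 h.2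
  refine hu.2.1 ?_
  have e1 : (h : G)⁻¹ * s * u * ((h : G)⁻¹ * s)⁻¹ = u := by rw [← hcu.eq, mul_inv_cancel_right]
  rw [show (h : G)⁻¹ * s * u * ((h : G)⁻¹ * s)⁻¹ = (h : G)⁻¹ * (s * u * s⁻¹) * h by group, h2,
    hhd.inv_left.eq, inv_mul_cancel_right] at e1
  exact e1.symm

end CfsgLib.Fischer.UniqueTwentyFour
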