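import Cfsg.Agent.Lib.Fischer.UniqueTwentyFour.LocalIso
import Cfsg.Agent.Lib.Fischer.UniqueTwentyFour.Pair

/-!
An isomorphism of two member centralizers extends, compatibly, to the centralizer of every neighbour: the
obstruction is an automorphism of the centralizer of a pair which is even on the common neighbours.
-/

set_option autoImplicit false
set_option linter.unusedSectionVars false

namespace CfsgLib.Fischer.UniqueTwentyFour

open CfsgLib.Fischer CfsgLib.InvChar.FischerProducts CfsgLib.Fischer.ClassSign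

/-- `χ` is an isomorphism of the centralizers of `v` and `φ v` agreeing with `φ` where both are defined. -/
structure IsCompat {G G' : Type*} [Group G] [Group G'] (D : Set G) (D' : Set G') (d : G) (d' : G')
    (φ : G → G') (v : G) (χ : G → G') : Prop where
  iso : IsLocalIso D D' v (φ v) χ
  base : χ d = d'
  agree : ∀ k, Commute k d → Commute k v → χ k = φ k

variable {G G' : Type*} [Group G] [Finite G] [Group G'] [Finite G'] {D : Set G} {D' : Set G'}

section Move

variable (hD : Cfsg.IsThreeTranspositionGroup D) (hprim : Cfsg.IsPrimitiveUnderConj D)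
  (ht : Cfsg.IsOfTypeM24 G D)

include hD hprim ht

/-- The centralizer of a member is transitive on its neighbours. -/
theorem exists_move {d v w : G} (hd : d ∈ D) (hv : v ∈ perp D d) (hw : w ∈ perp D d) :
    ∃ c : G, Commute c d ∧ c * v * c⁻¹ = w := by
  have hG := TypeTwentyFour.good hD hprim ht
  let H : Subgroup G := Subgroup.closure (perp D d)
  let v₁ : H := ⟨v, Subgroup.subset_closure hv⟩
  let w₁ : H := ⟨w, Subgroup.subset_closure hw⟩
  obtain ⟨q, hq⟩ := (TypeTwentyFour.good_at hD hprim ht hd).conj _ ⟨v₁, hv, rfl⟩ _ ⟨w₁, hw, rfl⟩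
  obtain ⟨c, rfl⟩ := QuotientGroup.mk'_surjective _ q
  have hmv : c * v₁ * c⁻¹ = w₁ :=
    TypeTwentyThree.mk_injOn hG hd (H := H) rfl ((memberSet_tt hD rfl).2.1 c v₁ hv) hw hq
  exact ⟨c, (commute_d (H := H) rfl c.2).symm, congrArg Subtype.val hmv⟩

end Move

variable (hD : Cfsg.IsThreeTranspositionGroup D) (hprim : Cfsg.IsPrimitiveUnderConj D)
  (ht : Cfsg.IsOfTypeM24 G D) (hD' : Cfsg.IsThreeTranspositionGroup D')
  (hprim' : Cfsg.IsPrimitiveUnderConj D') (ht' : Cfsg.IsOfTypeM24 G' D')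
variable {d : G} {d' : G'} {φ : G → G'} (hd : d ∈ D) (hd' : d' ∈ D') (hφ : IsLocalIso D D' d d' φ)

include hD hprim ht hD' hprim' ht' hd hd' hφ

/-- The extension to one neighbour. -/
theorem exists_compat_one {u : G} (hu : u ∈ perp D d) : ∃ ψ : G → G', IsCompat D D' d d' φ u ψ := by
  classical
  have hu' := hφ.perp_mem hu
  obtain ⟨s, hs1, hs2⟩ := exists_swap hD hprim ht hd hu
  obtain ⟨s', hs1', hs2'⟩ := exists_swap hD' hprim' ht' hd' hu'
  have h0 := hφ.conj hD hD' s s' hs1 hs1'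
  have hsd : s⁻¹ * d * s = u := by rw [← hs2]; group
  obtain ⟨β, hβ, hβP, hβs⟩ := swap_odd hD hprim ht hd hu (s := s⁻¹) (by rw [inv_inv]; exact hsd)
    (by rw [inv_inv, ← hs1]; group)
  obtain ⟨β', hβ', hβP', hβs'⟩ := swap_odd hD' hprim' ht' hd' hu' hs1' hs2'
  have hcP : ∀ x ∈ perp D d ∩ perp D u, Commute x d := fun x hx => hx.1.2.2.symm
  have hPP : ∀ x ∈ perp D d ∩ perp D u, φ x ∈ perp D' d' ∩ perp D' (φ u) := fun x hx =>
    ⟨hφ.perp_mem hx.1, (hφ.perp_mem hx.1).1, fun k => hx.2.2.1 (hφ.inj x u (hcP x hx) hu.2.2.symm k),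
      (hφ.commute_iff hu.2.2.symm (hcP x hx)).2 hx.2.2.2⟩
  have hPs : ∀ x' ∈ perp D' d' ∩ perp D' (φ u), ∃ x ∈ perp D d ∩ perp D u, φ x = x' := by
    intro x' hx'
    obtain ⟨x, hx, rfl⟩ := hφ.perp_surj hx'.1
    exact ⟨x, ⟨hx, hx.1, fun k => hx'.2.2.1 (congrArg φ k),
      (hφ.commute_iff hu.2.2.symm hx.2.2.symm).1 hx'.2.2.2⟩, rfl⟩
  obtain ⟨fK, hfK⟩ : ∃ fK : Subgroup.closure (perp D d ∩ perp D u) ≃*
      Subgroup.closure (perp D' d' ∩ perp D' (φ u)),
      ∀ x, ((fK x : Subgroup.closure (perp D' d' ∩ perp D' (φ u))) : G') = φ x := by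
    have hc : ∀ x : Subgroup.closure (perp D d ∩ perp D u), Commute (x : G) d := fun x =>
      (hφ.closure_mem hcP hPP x.2).1
    refine ⟨MulEquiv.ofBijective (MonoidHom.mk' (fun x : Subgroup.closure (perp D d ∩ perp D u) =>
      (⟨φ x, (hφ.closure_mem hcP hPP x.2).2⟩ : Subgroup.closure (perp D' d' ∩ perp D' (φ u))))
      fun x y => Subtype.ext (hφ.mul _ _ (hc x) (hc y))) ⟨fun x y k =>
        Subtype.ext (hφ.inj _ _ (hc x) (hc y) (congrArg Subtype.val k)), fun y => ?_⟩, fun x => rfl⟩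
    obtain ⟨x, hx, e⟩ := hφ.closure_surj hcP hPs y.2
    exact ⟨⟨x, hx⟩, Subtype.ext e⟩
  have hfP : ∀ x, fK x ∈ pairSet D' d' (φ u) ↔ x ∈ pairSet D d u := fun x => by
    refine ⟨fun h => ?_, fun h => ?_⟩
    · obtain ⟨z, hz, e⟩ := hPs _ h
      rw [hfK] at e
      have e2 : z = (x : G) := hφ.inj z x (hcP z hz) (hφ.closure_mem hcP hPP x.2).1 e
      show (x : G) ∈ perp D d ∩ perp D u
      rw [← e2]
      exact hz
    · show ((fK x : Subgroup.closure (perp D' d' ∩ perp D' (φ u))) : G') ∈ perp D' d' ∩ perp D' (φ u)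
      rw [hfK]
      exact hPP _ h
  have hγP : ∀ x, (fK.trans (β'.trans fK.symm)) x ∈ pairSet D d u ↔ x ∈ pairSet D d u := fun x => by
    rw [← hfP, MulEquiv.trans_apply, MulEquiv.trans_apply, fK.apply_symm_apply, hβP', hfP]
  have hγ : sg (fK.trans (β'.trans fK.symm)) (pairSet D d u) = -1 := by
    refine (sg_congr hγP hβP' (fun x => ⟨fK x, (hfP x).2 x.2⟩) ⟨fun x y k =>
      Subtype.ext (fK.injective (congrArg Subtype.val k)), fun y => ⟨⟨fK.symm y, ?_⟩, ?_⟩⟩ fun x => ?_).trans hβs'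
    · rw [← hfP, fK.apply_symm_apply]
      exact y.2
    · exact Subtype.ext (fK.apply_symm_apply y)
    · show fK ((fK.trans (β'.trans fK.symm)) x) = β' (fK x)
      rw [MulEquiv.trans_apply, MulEquiv.trans_apply, fK.apply_symm_apply]
  obtain ⟨α, hαdef⟩ : ∃ α, α = β.trans (fK.trans (β'.trans fK.symm)) := ⟨_, rfl⟩
  have hαP : ∀ x, α x ∈ pairSet D d u ↔ x ∈ pairSet D d u := fun x => by
    rw [hαdef, MulEquiv.trans_apply, hγP, hβP]
  rcases inner_or_odd hD hprim ht hd hu α hαP with ⟨h, hh⟩ | hodd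
  swap
  · rw [hαdef, sg_trans hβP hγP, hγ, hβs] at hodd
    exact absurd hodd (by decide)
  have hall : ∀ x, α x = h * x * h⁻¹ := by
    intro x
    have hle : Subgroup.closure (pairSet D d u) ≤
        MonoidHom.eqLocus α.toMonoidHom (MulAut.conj h).toMonoidHom :=
      (Subgroup.closure_le _).2 fun y hy => hh y hy
    exact hle (by
      rw [show pairSet D d u = ((↑) : Subgroup.closure (perp D d ∩ perp D u) → G) ⁻¹' (perp D d ∩ perp D u) from rfl,
        Subgroup.closure_closure_coe_preimage]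
      exact Subgroup.mem_top x)
  obtain ⟨hhd, hhu⟩ := (mem_pair_closure_iff hD hprim ht hd hu).1 h.2
  have hψ := h0.conj hD hD' (h : G) 1 (e := u) (e' := φ u)
    (by rw [hhu.eq, mul_inv_cancel_right]) (by rw [one_mul, inv_one, mul_one])
  refine ⟨_, hψ, ?_, fun k hkd hku => ?_⟩
  · show 1 * (s' * φ (s⁻¹ * ((h : G)⁻¹ * d * h) * s) * s'⁻¹) * 1⁻¹ = d'
    rw [hhd.inv_left.eq, inv_mul_cancel_right, hsd, hs2', one_mul, inv_one, mul_one]
  · show 1 * (s' * φ (s⁻¹ * ((h : G)⁻¹ * k * h) * s) * s'⁻¹) * 1⁻¹ = φ k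
    rw [one_mul, inv_one, mul_one]
    let x : Subgroup.closure (perp D d ∩ perp D u) :=
      h⁻¹ * ⟨k, (mem_pair_closure_iff hD hprim ht hd hu).2 ⟨hkd, hku⟩⟩ * h
    have hx := congrArg (fun z => ((fK z : Subgroup.closure (perp D' d' ∩ perp D' (φ u))) : G')) (hall x)
    simp only [hαdef, MulEquiv.trans_apply, fK.apply_symm_apply, hβ', hfK, hβ] at hx
    rw [show h * x * h⁻¹ = ⟨k, (mem_pair_closure_iff hD hprim ht hd hu).2 ⟨hkd, hku⟩⟩ by
      simp only [x]; group, inv_inv] at hx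
    exact hx

/-- The extensions to all neighbours. -/
theorem exists_family : ∃ χ : G → G → G', ∀ v ∈ perp D d, IsCompat D D' d d' φ v (χ v) := by
  classical
  obtain ⟨u, hu⟩ := TypeTwentyFour.exists_perp hD hprim ht hd
  obtain ⟨ψ, hψ⟩ := exists_compat_one hD hprim ht hD' hprim' ht' hd hd' hφ hu
  have hone : ∀ v ∈ perp D d, ∃ χ : G → G', IsCompat D D' d d' φ v χ := by
    intro v hv
    obtain ⟨c, hcd, rfl⟩ := exists_move hD hprim ht hd hu hv
    refine ⟨_, hψ.iso.conj hD hD' c (φ c) rfl (hφ.map_conj hcd hu.2.2.symm).symm, ?_, fun k hkd hkv => ?_⟩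
    · show φ c * ψ (c⁻¹ * d * c) * (φ c)⁻¹ = d'
      rw [hcd.inv_left.eq, inv_mul_cancel_right, hψ.base, (hφ.maps c hcd).eq, mul_inv_cancel_right]
    · show φ c * ψ (c⁻¹ * k * c) * (φ c)⁻¹ = φ k
      have h1 : Commute (c⁻¹ * k * c) d := (hcd.inv_left.mul_left hkd).mul_left hcd
      have h2 : Commute (c⁻¹ * k * c) u :=
        (conj_commute_iff c _ _).1 (by rwa [show c * (c⁻¹ * k * c) * c⁻¹ = k by group])
      rw [hψ.agree _ h1 h2, ← hφ.map_conj hcd h1, show c * (c⁻¹ * k * c) * c⁻¹ = k by group]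
  choose χ hχ using hone
  exact ⟨fun v => if h : v ∈ perp D d then χ v h else φ, fun v hv => by simp only [dif_pos hv]; exact hχ v hv⟩

end CfsgLib.Fischer.UniqueTwentyFour
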