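import Cfsg.Agent.Lib.Fischer.TypeTwentyThreeStructure

/-!
The largest normal p-subgroup of the member group in a group of type M(23) is central.
-/

set_option autoImplicit false
set_option linter.unusedSectionVars false

namespace CfsgLib.Fischer.UniqueTwentyFour

open CfsgLib.Fischer CfsgLib.InvChar.FischerProducts

variable {G : Type*} [Group G] [Finite G] {D : Set G}

theorem pCore_le_center_twentyThree (hD : Cfsg.IsThreeTranspositionGroup D) (hprim : Cfsg.IsPrimitiveUnderConj D)
    (ht : Cfsg.IsOfTypeM23 G D) {d : G} (hd : d ∈ D) (p : ℕ) [Fact p.Prime] :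
    Cfsg.pCore p (Subgroup.closure (perp D d)) ≤ Subgroup.center (Subgroup.closure (perp D d)) := by
  have := TypeTwentyThree.isSimple_at hD hprim ht hd
  have hgood := TypeTwentyThree.good_at hD hprim ht hd
  intro x hx
  rw [← QuotientGroup.eq_one_iff, ← Subgroup.mem_bot]
  let π := QuotientGroup.mk' (Subgroup.center (Subgroup.closure (perp D d)))
  have hn : ((Cfsg.pCore p (Subgroup.closure (perp D d))).map π).Normal :=
    Subgroup.Normal.map inferInstance _ (QuotientGroup.mk'_surjective _)
  have hp : IsPGroup p ((Cfsg.pCore p (Subgroup.closure (perp D d))).map π) :=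
    (CfsgLib.Cores.isPGroup_pCore p _).map π
  rcases IsSimpleGroup.eq_bot_or_eq_top_of_normal _ hn with h | h
  · exact h ▸ ⟨x, hx, rfl⟩
  exfalso
  rw [h] at hp
  have hp' : IsPGroup p (Subgroup.closure (perp D d) ⧸ Subgroup.center (Subgroup.closure (perp D d))) :=
    hp.of_equiv Subgroup.topEquiv
  have : Nontrivial (Subgroup.closure (perp D d) ⧸ Subgroup.center (Subgroup.closure (perp D d))) :=
    IsSimpleGroup.toNontrivial
  have := hp'.center_nontrivial
  rw [hgood.center] at this
  exact not_nontrivial _ this

end CfsgLib.Fischer.UniqueTwentyFour
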