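import Cfsg.Agent.Lib.Fischer.TypeTwentyFour

/-!
Inside the centralizer of a member of a group of type M(24): a member is determined, up to the line, by the
members it shares with two non-commuting ones, and non-commuting pairs are conjugate.
-/

set_option autoImplicit false
set_option linter.unusedSectionVars false

namespace CfsgLib.Fischer.UniqueTwentyFour

open CfsgLib.Fischer CfsgLib.InvChar.FischerProducts

variable {G : Type*} [Group G] [Finite G] {D : Set G}
variable (hD : Cfsg.IsThreeTranspositionGroup D) (hprim : Cfsg.IsPrimitiveUnderConj D)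
  (ht : Cfsg.IsOfTypeM24 G D)

include hD hprim ht

/-- Inside two commuting members. -/
theorem local_triangle_pair {u v e x y : G} (hu : u ∈ D) (hv : v ∈ perp D u) (he : e ∈ perp D u)
    (hx : x ∈ perp D u) (hy : y ∈ perp D u) (hev : Commute e v) (hxv : Commute x v) (hyv : Commute y v)
    (hex : ¬ Commute e x) (hey : ¬ Commute e y)
    (hsub : ∀ k ∈ perp D u ∩ perp D v, Commute k e → Commute k x → Commute k y) :
    y = x ∨ y = e * x * e⁻¹ := by
  have hG := TypeTwentyFour.good hD hprim ht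
  let H : Subgroup G := Subgroup.closure (perp D u)
  let π := QuotientGroup.mk' (Subgroup.center H)
  let E : Set (H ⧸ Subgroup.center H) := imageSet D u H
  have hQ := TypeTwentyFour.good_at hD hprim ht hu
  have hQp := TypeTwentyFour.primitive_at hD hprim ht hu
  have hQt := TypeTwentyFour.type23_at hD hprim ht hu
  have hmem : ∀ {a : H}, (a : G) ∈ perp D u → π a ∈ E := fun ha => ⟨_, ha, rfl⟩
  let v₁ : H := ⟨v, Subgroup.subset_closure hv⟩
  let e₁ : H := ⟨e, Subgroup.subset_closure he⟩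
  let x₁ : H := ⟨x, Subgroup.subset_closure hx⟩
  let y₁ : H := ⟨y, Subgroup.subset_closure hy⟩
  have hin : ∀ {a : H}, (a : G) ∈ perp D u → Commute (a : G) v → (a : G) ≠ v → π a ∈ perp E (π v₁) :=
    fun {a} ha hc hne => ⟨hmem ha, fun k => hne (congrArg Subtype.val
      (TypeTwentyThree.mk_injOn hG hu (H := H) rfl (x := a) (y := v₁) ha hv k)),
      (show Commute v₁ a from Subtype.ext hc.symm.eq).map π⟩
  have hE := hin (a := e₁) he hev fun k => hex ((show e = v from k) ▸ hxv.symm)
  have hX := hin (a := x₁) hx hxv fun k => hex ((show x = v from k) ▸ hev)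
  have hY := hin (a := y₁) hy hyv fun k => hey ((show y = v from k) ▸ hev)
  have hnc : ∀ {a b : H}, (a : G) ∈ perp D u → (b : G) ∈ perp D u → ¬ Commute (a : G) b →
      ¬ Commute (π a) (π b) := fun ha hb h k => h (TypeTwentyThree.commute_of_mk hG hu rfl ha hb k)
  have hlift : ∀ {q}, q ∈ perp E (π v₁) → Commute q (π e₁) → Commute q (π x₁) → Commute q (π y₁) := by
    rintro q ⟨⟨k, hk, rfl⟩, hne, hc⟩ h1 h2
    have hkv : Commute v (k : G) := TypeTwentyThree.commute_of_mk hG hu (H := H) rfl (x := v₁) hv hk hc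
    have := hsub k ⟨hk, hk.1, fun c => hne (congrArg π (Subtype.ext c : k = v₁)), hkv⟩
      (TypeTwentyThree.commute_of_mk hG hu (H := H) rfl (x := k) (y := e₁) hk he h1)
      (TypeTwentyThree.commute_of_mk hG hu (H := H) rfl (x := k) (y := x₁) hk hx h2)
    exact (show Commute k y₁ from Subtype.ext this.eq).map π
  obtain ⟨g, hg, hge, hg1, hg2⟩ := TypeTwentyThree.exists_common_perp hQ.tt hQp hQt (hmem (a := v₁) hv) hE hX
    (hnc (a := e₁) (b := x₁) he hx hex)
  have hg3 := hlift hg hg1.symm hg2.symm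
  rcases TypeTwentyThree.local_pair hQ.tt hQp hQt (f := π v₁) (g := g) (e := π e₁) (x := π x₁) (y := π y₁)
    (hmem (a := v₁) hv) hg ⟨hE, hE.1, hge.symm, hg1.symm⟩
    ⟨hX, hX.1, fun k => hnc (a := e₁) (b := x₁) he hx hex (k.symm ▸ hg1), hg2.symm⟩
    ⟨hY, hY.1, fun k => hnc (a := e₁) (b := y₁) he hy hey (k.symm ▸ hg1), hg3⟩
    (hnc (a := e₁) (b := x₁) he hx hex) (hnc (a := e₁) (b := y₁) he hy hey)
    (fun k hk h1 h2 => hlift hk.1 h1 h2) with h | h
  · exact Or.inl (congrArg Subtype.val (TypeTwentyThree.mk_injOn hG hu rfl (x := y₁) (y := x₁) hy hx h))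
  · refine Or.inr (congrArg Subtype.val (TypeTwentyThree.mk_injOn hG hu rfl (x := y₁) (y := e₁ * x₁ * e₁⁻¹) hy
      ((memberSet_tt hD rfl).2.1 e₁ x₁ hx) ?_))
    show π y₁ = π (e₁ * x₁ * e₁⁻¹)
    rw [map_mul, map_mul, map_inv]
    exact h

/-- Inside one member. -/
theorem local_triangle {u e x y : G} (hu : u ∈ D) (he : e ∈ perp D u) (hx : x ∈ perp D u) (hy : y ∈ perp D u)
    (hex : ¬ Commute e x) (hey : ¬ Commute e y)
    (hsub : ∀ k ∈ perp D u, Commute k e → Commute k x → Commute k y) :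
    y = x ∨ y = e * x * e⁻¹ := by
  obtain ⟨v, hv, -, hve, hvx⟩ := TypeTwentyFour.exists_common_perp hD hprim ht hu he hx hex
  exact local_triangle_pair hD hprim ht hu hv he hx hy hve hvx (hsub v hv hve.symm hvx.symm).symm hex hey
    fun k hk => hsub k hk.1

/-- The centralizer of two commuting members is transitive on the members far from one of them in the other's
neighbourhood. -/
theorem exists_conj_far {w d x y : G} (hw : w ∈ D) (hd : d ∈ perp D w) (hx : x ∈ perp D w) (hy : y ∈ perp D w)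
    (hdx : ¬ Commute d x) (hdy : ¬ Commute d y) :
    ∃ k : G, Commute k w ∧ Commute k d ∧ k * x * k⁻¹ = y := by
  have hG := TypeTwentyFour.good hD hprim ht
  let H : Subgroup G := Subgroup.closure (perp D w)
  let π := QuotientGroup.mk' (Subgroup.center H)
  let d₁ : H := ⟨d, Subgroup.subset_closure hd⟩
  let x₁ : H := ⟨x, Subgroup.subset_closure hx⟩
  let y₁ : H := ⟨y, Subgroup.subset_closure hy⟩
  obtain ⟨q, hq, he⟩ := TypeTwentyThree.mem_perpOrbit (TypeTwentyFour.good_at hD hprim ht hw).tt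
    (TypeTwentyFour.primitive_at hD hprim ht hw) (TypeTwentyFour.type23_at hD hprim ht hw)
    (e := π d₁) (x := π x₁) (y := π y₁) ⟨d₁, hd, rfl⟩ ⟨x₁, hx, rfl⟩ ⟨y₁, hy, rfl⟩
    (fun k => hdx (TypeTwentyThree.commute_of_mk hG hw rfl (x := d₁) (y := x₁) hd hx k))
    (fun k => hdy (TypeTwentyThree.commute_of_mk hG hw rfl (x := d₁) (y := y₁) hd hy k))
  obtain ⟨l, rfl⟩ := QuotientGroup.mk'_surjective _ q
  have hc : Commute (π d₁) (π l) := commute_of_mem_perpGroup hq
  have h1 : l * d₁ * l⁻¹ = d₁ := TypeTwentyThree.mk_injOn hG hw (H := H) rfl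
    ((memberSet_tt hD rfl).2.1 l d₁ hd) hd (by rw [map_mul, map_mul, map_inv, hc.symm.eq, mul_inv_cancel_right])
  have h2 : l * x₁ * l⁻¹ = y₁ := TypeTwentyThree.mk_injOn hG hw (H := H) rfl
    ((memberSet_tt hD rfl).2.1 l x₁ hx) hy (by rw [map_mul, map_mul, map_inv]; exact he.symm)
  exact ⟨l, (commute_d (H := H) rfl l.2).symm, mul_inv_eq_iff_eq_mul.1 (congrArg Subtype.val h1),
    congrArg Subtype.val h2⟩

end CfsgLib.Fischer.UniqueTwentyFour
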