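import Cfsg.Agent.Lib.Fischer.UniqueTwentyFour.Compat
import Cfsg.Agent.Lib.Fischer.UniqueTwentyFour.Counts
import Cfsg.Agent.Lib.Fischer.UniqueTwentyFour.Local

/-!
The isomorphism of two member centralizers extends to a bijection of the classes preserving commutation.
-/

set_option autoImplicit false
set_option linter.unusedSectionVars false

namespace CfsgLib.Fischer.UniqueTwentyFour

open CfsgLib.Fischer CfsgLib.InvChar.FischerProducts

theorem conj_eq_conj_iff {H : Type*} [Group H] (a b z : H) :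
    a * z * a⁻¹ = b * z * b⁻¹ ↔ Commute (b⁻¹ * a) z := by
  constructor
  · intro k
    refine mul_inv_eq_iff_eq_mul.1 ?_
    rw [show b⁻¹ * a * z * (b⁻¹ * a)⁻¹ = b⁻¹ * (a * z * a⁻¹) * b by group, k]
    group
  · intro k
    rw [show a * z * a⁻¹ = b * ((b⁻¹ * a) * z * (b⁻¹ * a)⁻¹) * b⁻¹ by group, k.eq, mul_inv_cancel_right]

variable {G G' : Type*} [Group G] [Finite G] [Group G'] [Finite G'] {D : Set G} {D' : Set G'}
variable (hD : Cfsg.IsThreeTranspositionGroup D) (hprim : Cfsg.IsPrimitiveUnderConj D)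
  (ht : Cfsg.IsOfTypeM24 G D) (hD' : Cfsg.IsThreeTranspositionGroup D')
  (hprim' : Cfsg.IsPrimitiveUnderConj D') (ht' : Cfsg.IsOfTypeM24 G' D')
variable {d : G} {d' : G'} {φ : G → G'} (hd : d ∈ D) (hd' : d' ∈ D') (hφ : IsLocalIso D D' d d' φ)
  {χ : G → G → G'} (hχ : ∀ v ∈ perp D d, IsCompat D D' d d' φ v (χ v))

include hD hprim ht hD' hprim' ht' hd hd' hφ hχ

/-- The images of a far member under the extensions at two commuting common neighbours share their neighbours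
among those of the base. -/
theorem compat_step {x v w k : G} (hx : x ∈ D) (hdx : ¬ Commute d x) (hv : v ∈ perp D d) (hw : w ∈ perp D d)
    (hvw : w ∈ perp D v) (hxv : Commute x v) (hxw : Commute x w) (hk : k ∈ perp D d) :
    Commute (φ k) (χ v x) ↔ Commute (φ k) (χ w x) := by
  have hv' := hφ.perp_mem hv
  have cv := hχ v hv
  have cw := hχ w hw
  have hvd : Commute d v := hv.2.2
  have hwd : Commute d w := hw.2.2
  have hfar : ∀ {a : G}, a ∈ perp D d → Commute x a → ¬ Commute d' (χ a x) := by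
    intro a ha hxa h
    rw [← (hχ a ha).base] at h
    exact hdx (((hχ a ha).iso.commute_iff ha.2.2 hxa).1 h)
  have hp : ∀ {a : G'}, a ∈ D' → ¬ Commute d' a → Commute a (φ v) → a ∈ perp D' (φ v) := fun ha h hc =>
    ⟨ha, fun e => h (e ▸ hv'.2.2), hc.symm⟩
  have hw' : φ w ∈ perp D' (φ v) :=
    ⟨(hφ.mem w hwd.symm).2 hw.1, fun e => hvw.2.1 (hφ.inj w v hwd.symm hvd.symm e),
      (hφ.commute_iff hvd.symm hwd.symm).2 hvw.2.2⟩
  have h1 : Commute (χ v x) (φ w) := by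
    rw [← cv.agree w hwd.symm hvw.2.2.symm]
    exact (cv.iso.commute_iff hxv hvw.2.2.symm).2 hxw
  have h2 : Commute (χ w x) (φ v) := by
    rw [← cw.agree v hvd.symm hvw.2.2]
    exact (cw.iso.commute_iff hxw hvw.2.2).2 hxv
  rcases local_triangle_pair hD' hprim' ht' hv'.1 hw' (e := d') (x := χ v x) (y := χ w x)
    (perp_symm hD' hprim' ht' hd' hv') (hp ((cv.iso.mem x hxv).2 hx) (hfar hv hxv) (cv.iso.maps x hxv))
    (hp ((cw.iso.mem x hxw).2 hx) (hfar hw hxw) h2) (hφ.perp_mem hw).2.2 h1 (cw.iso.maps x hxw) (hfar hv hxv)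
    (hfar hw hxw) (fun l' hl he hl1 => by
      obtain ⟨l, hld, rfl⟩ := hφ.surj l' he
      have hlv : Commute l v := (hφ.commute_iff hld hvd.symm).1 hl.1.2.2.symm
      have hlw : Commute l w := (hφ.commute_iff hld hwd.symm).1 hl.2.2.2.symm
      rw [← cv.agree l hld hlv] at hl1
      rw [← cw.agree l hld hlw]
      exact (cw.iso.commute_iff hlw hxw).2 ((cv.iso.commute_iff hlv hxv).1 hl1)) with h | h
  · rw [h]
  · rw [h]
    conv_rhs => rw [show φ k = d' * φ k * d'⁻¹ by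
      rw [(hφ.maps k hk.2.2.symm).symm.eq, mul_inv_cancel_right]]
    exact (conj_commute_iff d' _ _).symm

/-- A far member whose neighbours among those of the base correspond. -/
theorem exists_mirror : ∃ x ∈ D, ∃ x' ∈ D', ¬ Commute d x ∧ ¬ Commute d' x' ∧
    ∀ w ∈ perp D d, (Commute (φ w) x' ↔ Commute w x) := by
  obtain ⟨x, hx, hdx⟩ := exists_noncommuting hD ht.1 hd
  obtain ⟨u, hu⟩ := common_nonempty hD hd (TypeTwentyFour.connected hD hprim ht) hx hdx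
  have hup : u ∈ perp D d := ⟨hu.1, hu.2.1, hu.2.2.1⟩
  have cu := hχ u hup
  have hx' : χ u x ∈ D' := (cu.iso.mem x hu.2.2.2).2 hx
  have hdx' : ¬ Commute d' (χ u x) := fun h => by
    rw [← cu.base] at h
    exact hdx ((cu.iso.commute_iff hu.2.2.1 hu.2.2.2).1 h)
  refine ⟨x, hx, χ u x, hx', hdx, hdx', ?_⟩
  set A : Set G := {v | Relation.ReflTransGen (fun a b => b ∈ common D d x ∩ perp D a) u v} with hA
  have hAS : A ⊆ common D d x := by
    intro v hv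
    rcases Relation.ReflTransGen.cases_tail hv with e | ⟨b, -, hb⟩
    exacts [e ▸ hu, hb.1]
  have hAp : ∀ v ∈ A, v ∈ perp D d := fun v hv => ⟨(hAS hv).1, (hAS hv).2.1, (hAS hv).2.2.1⟩
  have hP : ∀ v ∈ A, ∀ k ∈ perp D d, (Commute (φ k) (χ v x) ↔ Commute (φ k) (χ u x)) := by
    intro v hv
    induction hv with
    | refl => exact fun k _ => Iff.rfl
    | @tail b c hb hc ih =>
      intro k hk
      exact (compat_step hD hprim ht hD' hprim' ht' hd hd' hφ hχ hx hdx (hAp b hb)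
        (hAp c (hb.tail hc)) hc.2 (hAS hb).2.2.2 hc.1.2.2.2 hk).symm.trans (ih k hk)
  have hQ : ∀ v ∈ A, ∀ k ∈ perp D d, Commute k v → (Commute (φ k) (χ u x) ↔ Commute k x) := by
    intro v hv k hk hkv
    rw [← hP v hv k hk, ← (hχ v (hAp v hv)).agree k hk.2.2.symm hkv]
    exact (hχ v (hAp v hv)).iso.commute_iff hkv (hAS hv).2.2.2
  intro w hw
  constructor
  · intro hc
    by_contra hn
    obtain ⟨v, hv, hwv⟩ := exists_commute_part hD hprim ht hd hx hdx hAS ⟨u, Relation.ReflTransGen.refl⟩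
      (fun v hv k hk => hv.tail hk) hw (fun c => hn c.symm)
    exact hn ((hQ v hv w hw hwv).1 hc)
  · intro hc
    by_contra hn
    obtain ⟨_, ⟨v, hv, rfl⟩, hwv⟩ := exists_commute_part hD' hprim' ht' hd' hx' hdx' (A := φ '' A)
      (by
        rintro _ ⟨v, hv, rfl⟩
        have h := hφ.perp_mem (hAp v hv)
        refine ⟨h.1, h.2.1, h.2.2, ((hQ v hv v (hAp v hv) (Commute.refl v)).2 (hAS hv).2.2.2.symm).symm⟩)
      ⟨φ u, u, Relation.ReflTransGen.refl, rfl⟩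
      (by
        rintro _ ⟨v, hv, rfl⟩ k' ⟨hk1, hk2⟩
        obtain ⟨k, hk, rfl⟩ := hφ.perp_surj ⟨hk1.1, hk1.2.1, hk1.2.2.1⟩
        have hkv : Commute k v := (hφ.commute_iff hk.2.2.symm (hAp v hv).2.2.symm).1 hk2.2.2.symm
        exact ⟨k, hv.tail ⟨⟨hk.1, hk.2.1, hk.2.2, ((hQ v hv k hk hkv).1 hk1.2.2.2.symm).symm⟩, hk.1,
          fun e => hk2.2.1 (congrArg φ e), hkv.symm⟩, rfl⟩)
      (hφ.perp_mem hw) (fun c => hn c.symm)
    exact hn ((hQ v hv w hw ((hφ.commute_iff hw.2.2.symm (hAp v hv).2.2.symm).1 hwv)).2 hc)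

/-- **The bijection of the classes.** -/
theorem exists_map : ∃ Φ : G → G', (∀ x ∈ D, Φ x ∈ D') ∧ (∀ x ∈ D, ∀ y ∈ D, Φ x = Φ y → x = y) ∧
    (∀ x' ∈ D', ∃ x ∈ D, Φ x = x') ∧ ∀ x ∈ D, ∀ y ∈ D, (Commute (Φ x) (Φ y) ↔ Commute x y) := by
  classical
  obtain ⟨x₀, hx₀, x₀', hx₀', hdx₀, hdx₀', hmir⟩ := exists_mirror hD hprim ht hD' hprim' ht' hd hd' hφ hχ
  have hS : ∀ f ∈ common D d x₀, Commute f d := fun f hf => hf.2.2.1.symm
  have hST : ∀ f ∈ common D d x₀, φ f ∈ common D' d' x₀' := fun f hf => by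
    have h := hφ.perp_mem (⟨hf.1, hf.2.1, hf.2.2.1⟩ : f ∈ perp D d)
    exact ⟨h.1, h.2.1, h.2.2, ((hmir f ⟨hf.1, hf.2.1, hf.2.2.1⟩).2 hf.2.2.2.symm).symm⟩
  have hSs : ∀ f' ∈ common D' d' x₀', ∃ f ∈ common D d x₀, φ f = f' := fun f' hf => by
    obtain ⟨f, hf', rfl⟩ := hφ.perp_surj (⟨hf.1, hf.2.1, hf.2.2.1⟩ : f' ∈ perp D' d')
    exact ⟨f, ⟨hf'.1, hf'.2.1, hf'.2.2, ((hmir f hf').1 hf.2.2.2.symm).symm⟩, rfl⟩
  have hfix : ∀ g, Commute g d → (Commute g x₀ ↔ Commute (φ g) x₀') := by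
    intro g hg
    constructor
    · intro h
      have hmem : g ∈ Subgroup.centralizer ({d, x₀} : Set G) := Subgroup.mem_centralizer_iff.2 (by
        rintro y (rfl | rfl) <;> [exact hg.symm.eq; exact h.symm.eq])
      rw [PairTwentyFour.centralizer_eq hD hprim ht hd hx₀ hdx₀] at hmem
      exact (PairThree.mem_centralizer_pair (PairThree.closure_common_le (hφ.closure_mem hS hST hmem).2)).2
    · intro h
      have hmem : φ g ∈ Subgroup.centralizer ({d', x₀'} : Set G') := Subgroup.mem_centralizer_iff.2 (by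
        rintro y (rfl | rfl) <;> [exact (hφ.maps g hg).symm.eq; exact h.symm.eq])
      rw [PairTwentyFour.centralizer_eq hD' hprim' ht' hd' hx₀' hdx₀'] at hmem
      obtain ⟨z, hz, e⟩ := hφ.closure_surj hS hSs hmem
      obtain ⟨hzd, hzx⟩ := PairThree.mem_centralizer_pair (PairThree.closure_common_le hz)
      exact hφ.inj z g hzd hg e ▸ hzx
  have hrep : ∀ x ∈ D, ¬ Commute d x → ∃ h, Commute h d ∧ h * x₀ * h⁻¹ = x := by
    intro x hx hdx
    obtain ⟨k, hk, e⟩ := TypeTwentyFour.mem_perpOrbit hD hprim ht hd hx₀ hx hdx₀ hdx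
    exact ⟨k, (commute_of_mem_perpGroup hk).symm, e.symm⟩
  have key : ∀ h₁ h₂, Commute h₁ d → Commute h₂ d →
      (h₁ * x₀ * h₁⁻¹ = h₂ * x₀ * h₂⁻¹ ↔ φ h₁ * x₀' * (φ h₁)⁻¹ = φ h₂ * x₀' * (φ h₂)⁻¹) := by
    intro h₁ h₂ c₁ c₂
    rw [conj_eq_conj_iff h₁ h₂ x₀, conj_eq_conj_iff (φ h₁) (φ h₂) x₀', hfix _ (c₂.inv_left.mul_left c₁), hφ.mul _ _ c₂.inv_left c₁,
      hφ.map_inv c₂]
  choose ρ hρd hρx using hrep
  let Φ : G → G' := fun x => if h : x ∈ D ∧ ¬ Commute d x then φ (ρ x h.1 h.2) * x₀' * (φ (ρ x h.1 h.2))⁻¹ else φ x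
  have hfar : ∀ h, Commute h d → Φ (h * x₀ * h⁻¹) = φ h * x₀' * (φ h)⁻¹ := by
    intro h hc
    have h1 : h * x₀ * h⁻¹ ∈ D ∧ ¬ Commute d (h * x₀ * h⁻¹) := ⟨hD.2.1 h _ hx₀, fun k => hdx₀ (by
      rwa [show d = h * d * h⁻¹ by rw [hc.eq, mul_inv_cancel_right], conj_commute_iff] at k)⟩
    show dite _ _ _ = _
    rw [dif_pos h1]
    exact (key _ _ (hρd _ h1.1 h1.2) hc).1 (hρx _ h1.1 h1.2)
  have hnear : ∀ x, Commute d x → Φ x = φ x := fun x hx => dif_neg fun k => k.2 hx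
  have hex : ∀ x ∈ D, ¬ Commute d x → ∃ h, Commute h d ∧ h * x₀ * h⁻¹ = x ∧ Φ x = φ h * x₀' * (φ h)⁻¹ :=
    fun x hx hdx => ⟨_, hρd x hx hdx, hρx x hx hdx, dif_pos ⟨hx, hdx⟩⟩
  have hfar' : ∀ x ∈ D, ¬ Commute d x → Φ x ∈ D' ∧ ¬ Commute d' (Φ x) := by
    intro x hx hdx
    obtain ⟨h, hh, -, e⟩ := hex x hx hdx
    rw [e]
    refine ⟨hD'.2.1 _ _ hx₀', fun k => hdx₀' ?_⟩
    rwa [show d' = φ h * d' * (φ h)⁻¹ by rw [(hφ.maps h hh).eq, mul_inv_cancel_right], conj_commute_iff] at k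
  have hmirror : ∀ x ∈ D, ¬ Commute d x → ∀ w ∈ perp D d, (Commute (φ w) (Φ x) ↔ Commute w x) := by
    intro x hx hdx w hw
    obtain ⟨h, hh, e1, e⟩ := hex x hx hdx
    have hc : Commute (h⁻¹ * w * h) d := (hh.inv_left.mul_left hw.2.2.symm).mul_left hh
    have hp : h⁻¹ * w * h ∈ perp D d := by
      have := (TypeTwentyTwo.conj_mem_perp_iff hD (g := h⁻¹) hh.inv_left).2 hw
      rwa [inv_inv] at this
    rw [e, show φ w = φ h * φ (h⁻¹ * w * h) * (φ h)⁻¹ by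
      rw [← hφ.map_conj hh hc, show h * (h⁻¹ * w * h) * h⁻¹ = w by group], conj_commute_iff, hmir _ hp]
    conv_rhs => rw [← e1, show w = h * (h⁻¹ * w * h) * h⁻¹ by group]
    rw [conj_commute_iff]
  have hpair : ∀ x ∈ D, ∀ y ∈ D, ¬ Commute d x → ¬ Commute d y → ∀ w ∈ perp D d, Commute x w → Commute y w →
      (Commute (Φ x) (Φ y) ↔ Commute x y) := by
    intro x hx y hy hdx hdy w hw hxw hyw
    have cw := hχ w hw
    have hw' := hφ.perp_mem hw
    have hp : ∀ {z}, z ∈ D → ¬ Commute d z → Commute z w → z ∈ perp D w := fun hz h hc =>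
      ⟨hz, fun e => h (e ▸ hw.2.2), hc.symm⟩
    have hp' : ∀ {z'}, z' ∈ D' → ¬ Commute d' z' → Commute z' (φ w) → z' ∈ perp D' (φ w) := fun hz h hc =>
      ⟨hz, fun e => h (e ▸ hw'.2.2), hc.symm⟩
    have hχd : ¬ Commute d' (χ w x) := fun h => by
      rw [← cw.base] at h
      exact hdx ((cw.iso.commute_iff hw.2.2 hxw).1 h)
    obtain ⟨k, hkw, hkd, hky⟩ := exists_conj_far hD hprim ht hw.1 (perp_symm hD hprim ht hd hw) (hp hx hdx hxw)
      (hp hy hdy hyw) hdx hdy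
    have eΦ : Φ y = φ k * Φ x * (φ k)⁻¹ := by
      obtain ⟨h, hh, e1, e⟩ := hex x hx hdx
      rw [e, ← hky, ← e1, show k * (h * x₀ * h⁻¹) * k⁻¹ = k * h * x₀ * (k * h)⁻¹ by group,
        hfar _ (hkd.mul_left hh), hφ.mul _ _ hkd hh]
      group
    have eχ : χ w y = φ k * χ w x * (φ k)⁻¹ := by
      rw [← hky, cw.iso.map_conj hkw hxw, cw.agree k hkd hkw]
    have hχiff : Commute (χ w x) (φ k * χ w x * (φ k)⁻¹) ↔ Commute x y := by
      rw [← eχ]
      exact cw.iso.commute_iff hxw hyw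
    have hkd' : Commute (φ k) d' := hφ.maps k hkd
    rw [eΦ, ← hχiff]
    rcases local_triangle hD' hprim' ht' hw'.1 (e := d') (x := Φ x) (y := χ w x) (perp_symm hD' hprim' ht' hd' hw')
      (hp' (hfar' x hx hdx).1 (hfar' x hx hdx).2 ((hmirror x hx hdx w hw).2 hxw.symm).symm)
      (hp' ((cw.iso.mem x hxw).2 hx) hχd (cw.iso.maps x hxw)) (hfar' x hx hdx).2 hχd
      (fun l' hl hl1 hl2 => by
        obtain ⟨l, hl', rfl⟩ := hφ.perp_surj (⟨hl.1, fun e => (hfar' x hx hdx).2 (e ▸ hl2), hl1.symm⟩ :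
          l' ∈ perp D' d')
        have hlw : Commute l w := (hφ.commute_iff hl'.2.2.symm hw.2.2.symm).1 hl.2.2.symm
        rw [← cw.agree l hl'.2.2.symm hlw]
        exact (cw.iso.commute_iff hlw hxw).2 ((hmirror x hx hdx l hl').1 hl2)) with h | h
    · rw [h]
    · rw [h, show φ k * (d' * Φ x * d'⁻¹) * (φ k)⁻¹ = d' * (φ k * Φ x * (φ k)⁻¹) * d'⁻¹ by
        rw [show φ k * (d' * Φ x * d'⁻¹) * (φ k)⁻¹ = (φ k * d') * Φ x * (φ k * d')⁻¹ by group, hkd'.eq]; group,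
        conj_commute_iff]
  have hmem : ∀ x ∈ D, Φ x ∈ D' := fun x hx => by
    by_cases hc : Commute d x
    · rw [hnear x hc]
      exact (hφ.mem x hc.symm).2 hx
    · exact (hfar' x hx hc).1
  have hinj : ∀ x ∈ D, ∀ y ∈ D, Φ x = Φ y → x = y := by
    intro x hx y hy e
    by_cases hcx : Commute d x <;> by_cases hcy : Commute d y
    · rw [hnear x hcx, hnear y hcy] at e
      exact hφ.inj x y hcx.symm hcy.symm e
    · exact absurd (e ▸ (hnear x hcx).symm ▸ (hφ.maps x hcx.symm).symm) (hfar' y hy hcy).2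
    · exact absurd (e.symm ▸ (hnear y hcy).symm ▸ (hφ.maps y hcy.symm).symm) (hfar' x hx hcx).2
    · obtain ⟨h, hh, e1, e1'⟩ := hex x hx hcx
      obtain ⟨g, hg, e2, e2'⟩ := hex y hy hcy
      rw [← e1, ← e2]
      exact (key h g hh hg).2 (e1'.symm.trans (e.trans e2'))
  have hsurj : ∀ x' ∈ D', ∃ x ∈ D, Φ x = x' := by
    intro x' hx'
    by_cases hc : Commute d' x'
    · obtain ⟨x, hxd, rfl⟩ := hφ.surj x' hc.symm
      exact ⟨x, (hφ.mem x hxd).1 hx', hnear x hxd.symm⟩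
    · obtain ⟨k', hk', e⟩ := TypeTwentyFour.mem_perpOrbit hD' hprim' ht' hd' hx₀' hx' hdx₀' hc
      obtain ⟨k, hk, rfl⟩ := hφ.surj k' (commute_of_mem_perpGroup hk').symm
      exact ⟨k * x₀ * k⁻¹, hD.2.1 k _ hx₀, (hfar k hk).trans e.symm⟩
  refine ⟨Φ, hmem, hinj, hsurj, ?_⟩
  have hnf : ∀ x ∈ D, ∀ y ∈ D, Commute d x → ¬ Commute d y → (Commute (Φ x) (Φ y) ↔ Commute x y) := by
    intro x hx y hy hcx hcy
    rw [hnear x hcx]
    by_cases hxd : x = d
    · rw [hxd, hφ.base]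
      exact iff_of_false (hfar' y hy hcy).2 hcy
    · exact hmirror y hy hcy x ⟨hx, hxd, hcx⟩
  intro x hx y hy
  by_cases hcx : Commute d x <;> by_cases hcy : Commute d y
  · rw [hnear x hcx, hnear y hcy]
    exact hφ.commute_iff hcx.symm hcy.symm
  · exact hnf x hx y hy hcx hcy
  · exact ⟨fun h => ((hnf y hy x hx hcy hcx).1 h.symm).symm, fun h => ((hnf y hy x hx hcy hcx).2 h.symm).symm⟩
  · constructor
    · intro h
      by_cases he : Φ x = Φ y
      · rw [hinj x hx y hy he]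
      obtain ⟨v', hv', hyv⟩ := exists_commute_part hD' hprim' ht' (hmem x hx) hd' (d := Φ x) (x := d')
        (fun k => (hfar' x hx hcx).2 k.symm) subset_rfl
        (common_nonempty hD' (hmem x hx) (TypeTwentyFour.connected hD' hprim' ht') hd'
          fun k => (hfar' x hx hcx).2 k.symm)
        (fun _ _ => Set.inter_subset_left) (⟨hmem y hy, Ne.symm he, h⟩ : Φ y ∈ perp D' (Φ x))
        (hfar' y hy hcy).2
      obtain ⟨v, hv, rfl⟩ := hφ.perp_surj (⟨hv'.1, fun e => (hfar' x hx hcx).2 (e ▸ hv'.2.2.1).symm,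
        hv'.2.2.2⟩ : v' ∈ perp D' d')
      exact (hpair x hx y hy hcx hcy v hv ((hmirror x hx hcx v hv).1 hv'.2.2.1.symm).symm
        ((hmirror y hy hcy v hv).1 hyv.symm).symm).1 h
    · intro h
      by_cases he : x = y
      · rw [he]
      obtain ⟨v, hv, hyv⟩ := exists_commute_part hD hprim ht hx hd (d := x) (x := d) (fun k => hcx k.symm)
        subset_rfl (common_nonempty hD hx (TypeTwentyFour.connected hD hprim ht) hd fun k => hcx k.symm)
        (fun _ _ => Set.inter_subset_left) (⟨hy, Ne.symm he, h⟩ : y ∈ perp D x) hcy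
      exact (hpair x hx y hy hcx hcy v ⟨hv.1, fun e => hcx (e ▸ hv.2.2.1).symm, hv.2.2.2⟩ hv.2.2.1 hyv).2 h

end CfsgLib.Fischer.UniqueTwentyFour
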