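import Cfsg.Agent.Lib.Fischer.UniqueTwentyFour.Extension

/-!
Groups of type M(24) with isomorphic local quotients are isomorphic.
-/

set_option autoImplicit false
set_option linter.unusedSectionVars false

namespace CfsgLib.Fischer.UniqueTwentyFour

open CfsgLib.Fischer CfsgLib.InvChar.FischerProducts

/-- Groups generated by classes with commutation-preserving, conjugation-preserving bijection. -/
theorem exists_equiv_of_bij {G G' : Type*} [Group G] [Group G'] {D : Set G} {D' : Set G'}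
    (hD : Cfsg.IsThreeTranspositionGroup D) (hD' : Cfsg.IsThreeTranspositionGroup D')
    (hZ : Subgroup.center G = ⊥) (hZ' : Subgroup.center G' = ⊥) {Φ : G → G'} (hmem : ∀ x ∈ D, Φ x ∈ D')
    (hinj : ∀ x ∈ D, ∀ y ∈ D, Φ x = Φ y → x = y) (hsurj : ∀ x' ∈ D', ∃ x ∈ D, Φ x = x')
    (hconj : ∀ x ∈ D, ∀ y ∈ D, Φ (x * y * x⁻¹) = Φ x * Φ y * (Φ x)⁻¹) :
    ∃ e : G ≃* G', e '' D = D' := by
  let Γ : Subgroup (G × G') :=
    { carrier := {p | ∀ x ∈ D, Φ (p.1 * x * p.1⁻¹) = p.2 * Φ x * p.2⁻¹}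
      one_mem' := fun x _ => by simp
      mul_mem' := fun {p q} hp hq x hx => by
        show Φ (p.1 * q.1 * x * (p.1 * q.1)⁻¹) = p.2 * q.2 * Φ x * (p.2 * q.2)⁻¹
        rw [show p.1 * q.1 * x * (p.1 * q.1)⁻¹ = p.1 * (q.1 * x * q.1⁻¹) * p.1⁻¹ by group,
          hp _ (hD.2.1 q.1 x hx), hq x hx]
        group
      inv_mem' := fun {p} hp x hx => by
        show Φ (p.1⁻¹ * x * p.1⁻¹⁻¹) = p.2⁻¹ * Φ x * p.2⁻¹⁻¹
        have h := hp _ (hD.2.1 p.1⁻¹ x hx)
        rw [show p.1 * (p.1⁻¹ * x * p.1⁻¹⁻¹) * p.1⁻¹ = x by group] at h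
        rw [h]
        group }
  have hgen : ∀ a ∈ D, ((a, Φ a) : G × G') ∈ Γ := fun a ha x hx => hconj a ha x hx
  let p₁ : Γ →* G := (MonoidHom.fst G G').comp Γ.subtype
  let p₂ : Γ →* G' := (MonoidHom.snd G G').comp Γ.subtype
  have hs₁ : Function.Surjective p₁ := by
    rw [← MonoidHom.range_eq_top, eq_top_iff, ← hD.2.2, Subgroup.closure_le]
    exact fun a ha => ⟨⟨_, hgen a ha⟩, rfl⟩
  have hs₂ : Function.Surjective p₂ := by
    rw [← MonoidHom.range_eq_top, eq_top_iff, ← hD'.2.2, Subgroup.closure_le]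
    intro a' ha'
    obtain ⟨a, ha, rfl⟩ := hsurj a' ha'
    exact ⟨⟨_, hgen a ha⟩, rfl⟩
  have hi₁ : Function.Injective p₁ := by
    rw [injective_iff_map_eq_one]
    intro p hp
    have h1 : (p : G × G').1 = 1 := hp
    refine Subtype.ext (Prod.ext h1 ?_)
    have : (p : G × G').2 ∈ Subgroup.center G' := mem_center hD'.2.2 fun b hb => by
      obtain ⟨x, hx, rfl⟩ := hsurj b hb
      have h := p.2 x hx
      rw [h1, one_mul, inv_one, mul_one] at h
      exact mul_inv_eq_iff_eq_mul.1 h.symm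
    rwa [hZ', Subgroup.mem_bot] at this
  have hi₂ : Function.Injective p₂ := by
    rw [injective_iff_map_eq_one]
    intro p hp
    have h1 : (p : G × G').2 = 1 := hp
    refine Subtype.ext (Prod.ext ?_ h1)
    have : (p : G × G').1 ∈ Subgroup.center G := mem_center hD.2.2 fun b hb => by
      have h := p.2 b hb
      rw [h1, one_mul, inv_one, mul_one] at h
      exact mul_inv_eq_iff_eq_mul.1 (hinj _ (hD.2.1 _ b hb) b hb h)
    rwa [hZ, Subgroup.mem_bot] at this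
  let e₁ := MulEquiv.ofBijective p₁ ⟨hi₁, hs₁⟩
  let e₂ := MulEquiv.ofBijective p₂ ⟨hi₂, hs₂⟩
  have he : ∀ a ∈ D, (e₁.symm.trans e₂) a = Φ a := fun a ha => by
    rw [MulEquiv.trans_apply, show e₁.symm a = ⟨(a, Φ a), hgen a ha⟩ from e₁.symm_apply_eq.2 rfl]
    rfl
  refine ⟨e₁.symm.trans e₂, ?_⟩
  ext y
  constructor
  · rintro ⟨a, ha, rfl⟩
    exact (he a ha).symm ▸ hmem a ha
  · intro hy
    obtain ⟨a, ha, rfl⟩ := hsurj y hy
    exact ⟨a, ha, he a ha⟩

variable {G G' : Type*} [Group G] [Finite G] [Group G'] [Finite G'] {D : Set G} {D' : Set G'}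

/-- **Type M(24) is determined by its local quotient.** -/
theorem exists_equiv_of_local (hD : Cfsg.IsThreeTranspositionGroup D) (hprim : Cfsg.IsPrimitiveUnderConj D)
    (ht : Cfsg.IsOfTypeM24 G D) (hD' : Cfsg.IsThreeTranspositionGroup D')
    (hprim' : Cfsg.IsPrimitiveUnderConj D') (ht' : Cfsg.IsOfTypeM24 G' D') {d : G} {d' : G'} (hd : d ∈ D)
    (hd' : d' ∈ D')
    (e : Subgroup.closure (perp D d) ⧸ Subgroup.center (Subgroup.closure (perp D d)) ≃*
      Subgroup.closure (perp D' d') ⧸ Subgroup.center (Subgroup.closure (perp D' d')))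
    (he : e '' imageSet D d (Subgroup.closure (perp D d)) = imageSet D' d' (Subgroup.closure (perp D' d'))) :
    ∃ e : G ≃* G', e '' D = D' := by
  obtain ⟨φ, hφ⟩ := exists_localIso hD hprim ht hD' hprim' ht' hd hd' e he
  obtain ⟨χ, hχ⟩ := exists_family hD hprim ht hD' hprim' ht' hd hd' hφ
  obtain ⟨Φ, hmem, hinj, hsurj, hcomm⟩ := exists_map hD hprim ht hD' hprim' ht' hd hd' hφ hχ
  refine exists_equiv_of_bij hD hD' ht.1 ht'.1 hmem hinj hsurj fun a ha b hb => ?_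
  by_cases hab : Commute a b
  · rw [hab.eq, mul_inv_cancel_right, ((hcomm a ha b hb).2 hab).eq, mul_inv_cancel_right]
  have hc : a * b * a⁻¹ ∈ D := hD.2.1 a b hb
  have hac : ¬ Commute a (a * b * a⁻¹) := fun k => hab ((conj_commute_iff a a b).1 (by
    rwa [show a * a * a⁻¹ = a by group]))
  have hab' : ¬ Commute (Φ a) (Φ b) := fun k => hab ((hcomm a ha b hb).1 k)
  have hac' : ¬ Commute (Φ a) (Φ (a * b * a⁻¹)) := fun k => hac ((hcomm a ha _ hc).1 k)
  obtain ⟨f, hf⟩ := common_nonempty hD' (hmem a ha) (TypeTwentyFour.connected hD' hprim' ht') (hmem b hb) hab'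
  have hsub : common D' (Φ a) (Φ b) ⊆ common D' (Φ a) (Φ (a * b * a⁻¹)) := by
    rintro k' ⟨hk', hne, h1, h2⟩
    obtain ⟨k, hk, rfl⟩ := hsurj k' hk'
    have h1' := (hcomm a ha k hk).1 h1
    have h2' := (hcomm b hb k hk).1 h2
    exact ⟨hk', hne, h1, (hcomm _ hc k hk).2 ((h1'.mul_left h2').mul_left h1'.inv_left)⟩
  rcases TypeTwentyFour.local_single hD' hprim' ht' (hmem a ha) (hmem b hb) (hmem _ hc) hab' hac' hf hsub with h | h
  · exact absurd (mul_inv_eq_iff_eq_mul.1 (hinj _ hc b hb h)) hab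
  · exact h

end CfsgLib.Fischer.UniqueTwentyFour
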