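import Cfsg.Agent.Lib.Fischer.Parity.Sign
import Cfsg.Agent.Lib.Fischer.M24Sylow.Eleven

/-!
Isomorphisms of member centralizers of two groups of type M(24), and their existence from an isomorphism of
the local quotients: the lift through the centre is fixed by the sign.
-/

set_option autoImplicit false
set_option linter.unusedSectionVars false

namespace CfsgLib.Fischer.UniqueTwentyFour

open CfsgLib.Fischer CfsgLib.InvChar.FischerProducts

/-- `φ` restricts to an isomorphism of the centralizer of `d` onto that of `d'`, respecting the classes. -/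
structure IsLocalIso {G G' : Type*} [Group G] [Group G'] (D : Set G) (D' : Set G') (d : G) (d' : G')
    (φ : G → G') : Prop where
  maps : ∀ x, Commute x d → Commute (φ x) d'
  mul : ∀ x y, Commute x d → Commute y d → φ (x * y) = φ x * φ y
  inj : ∀ x y, Commute x d → Commute y d → φ x = φ y → x = y
  surj : ∀ x', Commute x' d' → ∃ x, Commute x d ∧ φ x = x'
  mem : ∀ x, Commute x d → (φ x ∈ D' ↔ x ∈ D)
  base : φ d = d'

namespace IsLocalIso

variable {G G' : Type*} [Group G] [Group G'] {D : Set G} {D' : Set G'} {d : G} {d' : G'} {φ : G → G'}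

theorem map_one (h : IsLocalIso D D' d d' φ) : φ 1 = 1 := by
  have := h.mul 1 1 (Commute.one_left d) (Commute.one_left d)
  rwa [mul_one, left_eq_mul] at this

theorem map_inv (h : IsLocalIso D D' d d' φ) {x : G} (hx : Commute x d) : φ x⁻¹ = (φ x)⁻¹ :=
  eq_inv_of_mul_eq_one_left (by rw [← h.mul _ _ hx.inv_left hx, inv_mul_cancel, h.map_one])

theorem map_conj (h : IsLocalIso D D' d d' φ) {k x : G} (hk : Commute k d) (hx : Commute x d) :
    φ (k * x * k⁻¹) = φ k * φ x * (φ k)⁻¹ := by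
  rw [h.mul _ _ (hk.mul_left hx) hk.inv_left, h.mul _ _ hk hx, h.map_inv hk]

theorem commute_iff (h : IsLocalIso D D' d d' φ) {x y : G} (hx : Commute x d) (hy : Commute y d) :
    Commute (φ x) (φ y) ↔ Commute x y :=
  ⟨fun c => h.inj _ _ (hx.mul_left hy) (hy.mul_left hx) (by rw [h.mul _ _ hx hy, h.mul _ _ hy hx, c.eq]),
    fun c => (h.mul _ _ hx hy).symm.trans ((congrArg φ c.eq).trans (h.mul _ _ hy hx))⟩

theorem mem_perp_iff (h : IsLocalIso D D' d d' φ) {x : G} (hx : Commute x d) :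
    φ x ∈ perp D' d' ↔ x ∈ perp D d :=
  ⟨fun k => ⟨(h.mem x hx).1 k.1, fun e => k.2.1 (e ▸ h.base), hx.symm⟩,
    fun k => ⟨(h.mem x hx).2 k.1, fun e => k.2.1 (h.inj x d hx (Commute.refl d) (e.trans h.base.symm)),
      (h.maps x hx).symm⟩⟩

theorem perp_mem (h : IsLocalIso D D' d d' φ) {x : G} (hx : x ∈ perp D d) : φ x ∈ perp D' d' :=
  (h.mem_perp_iff hx.2.2.symm).2 hx

theorem perp_surj (h : IsLocalIso D D' d d' φ) {x' : G'} (hx : x' ∈ perp D' d') :
    ∃ x ∈ perp D d, φ x = x' := by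
  obtain ⟨x, hx', rfl⟩ := h.surj x' hx.2.2.symm
  exact ⟨x, (h.mem_perp_iff hx').1 hx, rfl⟩

theorem closure_mem (h : IsLocalIso D D' d d' φ) {S : Set G} (hS : ∀ x ∈ S, Commute x d) {T : Set G'}
    (hT : ∀ x ∈ S, φ x ∈ T) {x : G} (hx : x ∈ Subgroup.closure S) :
    Commute x d ∧ φ x ∈ Subgroup.closure T := by
  induction hx using Subgroup.closure_induction with
  | mem m hm => exact ⟨hS m hm, Subgroup.subset_closure (hT m hm)⟩
  | one => exact ⟨Commute.one_left d, h.map_one ▸ one_mem _⟩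
  | mul a b _ _ ha hb => exact ⟨ha.1.mul_left hb.1, h.mul _ _ ha.1 hb.1 ▸ mul_mem ha.2 hb.2⟩
  | inv a _ ha => exact ⟨ha.1.inv_left, h.map_inv ha.1 ▸ inv_mem ha.2⟩

theorem closure_surj (h : IsLocalIso D D' d d' φ) {S : Set G} (hS : ∀ x ∈ S, Commute x d) {T : Set G'}
    (hT : ∀ x' ∈ T, ∃ x ∈ S, φ x = x') {x' : G'} (hx : x' ∈ Subgroup.closure T) :
    ∃ x ∈ Subgroup.closure S, φ x = x' := by
  have hc : ∀ x ∈ Subgroup.closure S, Commute x d := fun x hx =>
    (h.closure_mem hS (T := Set.univ) (fun _ _ => trivial) hx).1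
  induction hx using Subgroup.closure_induction with
  | mem m hm =>
    obtain ⟨x, hx, e⟩ := hT m hm
    exact ⟨x, Subgroup.subset_closure hx, e⟩
  | one => exact ⟨1, one_mem _, h.map_one⟩
  | mul a b _ _ ha hb =>
    obtain ⟨x, hx, rfl⟩ := ha
    obtain ⟨y, hy, rfl⟩ := hb
    exact ⟨x * y, mul_mem hx hy, h.mul _ _ (hc x hx) (hc y hy)⟩
  | inv a _ ha =>
    obtain ⟨x, hx, rfl⟩ := ha
    exact ⟨x⁻¹, inv_mem hx, h.map_inv (hc x hx)⟩

/-- Transport by two elements. -/
theorem conj (h : IsLocalIso D D' d d' φ) (hD : Cfsg.IsThreeTranspositionGroup D)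
    (hD' : Cfsg.IsThreeTranspositionGroup D') (s : G) (s' : G') {e : G} {e' : G'} (he : s * d * s⁻¹ = e)
    (he' : s' * d' * s'⁻¹ = e') :
    IsLocalIso D D' e e' fun x => s' * φ (s⁻¹ * x * s) * s'⁻¹ := by
  subst he he'
  have hb : ∀ x, Commute x (s * d * s⁻¹) → Commute (s⁻¹ * x * s) d := fun x hx =>
    (conj_commute_iff s _ _).1 (by rwa [show s * (s⁻¹ * x * s) * s⁻¹ = x by group])
  refine ⟨fun x hx => (conj_commute_iff s' _ _).2 (h.maps _ (hb x hx)), fun x y hx hy => ?_,
    fun x y hx hy k => ?_, fun x' hx => ?_, fun x hx => ?_, ?_⟩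
  · rw [show s⁻¹ * (x * y) * s = (s⁻¹ * x * s) * (s⁻¹ * y * s) by group, h.mul _ _ (hb x hx) (hb y hy)]
    group
  · exact mul_left_cancel (mul_right_cancel (h.inj _ _ (hb x hx) (hb y hy) (mul_left_cancel (mul_right_cancel k))))
  · obtain ⟨y, hy, hy'⟩ := h.surj (s'⁻¹ * x' * s')
      ((conj_commute_iff s' _ _).1 (by rwa [show s' * (s'⁻¹ * x' * s') * s'⁻¹ = x' by group]))
    refine ⟨s * y * s⁻¹, (conj_commute_iff s _ _).2 hy, ?_⟩
    show s' * φ (s⁻¹ * (s * y * s⁻¹) * s) * s'⁻¹ = x'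
    rw [show s⁻¹ * (s * y * s⁻¹) * s = y by group, hy']
    group
  · rw [conj_iff hD' s', h.mem _ (hb x hx), ← conj_iff hD s, show s * (s⁻¹ * x * s) * s⁻¹ = x by group]
  · show s' * φ (s⁻¹ * (s * d * s⁻¹) * s) * s'⁻¹ = _
    rw [show s⁻¹ * (s * d * s⁻¹) * s = d by group, h.base]

end IsLocalIso

variable {G G' : Type*} [Group G] [Finite G] [Group G'] [Finite G'] {D : Set G} {D' : Set G'}

/-- An isomorphism of local quotients lifts to the centralizers. -/
theorem exists_localIso (hD : Cfsg.IsThreeTranspositionGroup D) (hprim : Cfsg.IsPrimitiveUnderConj D)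
    (ht : Cfsg.IsOfTypeM24 G D) (hD' : Cfsg.IsThreeTranspositionGroup D')
    (hprim' : Cfsg.IsPrimitiveUnderConj D') (ht' : Cfsg.IsOfTypeM24 G' D') {d : G} {d' : G'} (hd : d ∈ D)
    (hd' : d' ∈ D')
    (e : Subgroup.closure (perp D d) ⧸ Subgroup.center (Subgroup.closure (perp D d)) ≃*
      Subgroup.closure (perp D' d') ⧸ Subgroup.center (Subgroup.closure (perp D' d')))
    (he : e '' imageSet D d (Subgroup.closure (perp D d)) = imageSet D' d' (Subgroup.closure (perp D' d'))) :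
    ∃ φ : G → G', IsLocalIso D D' d d' φ := by
  classical
  obtain ⟨ε, hε⟩ := Parity.exists_parity hD hprim ht
  obtain ⟨ε', hε'⟩ := Parity.exists_parity hD' hprim' ht'
  obtain ⟨π, hker, hmem, hsur⟩ := MTwentyFourSylow.exists_proj24 hD hprim ht hd
  obtain ⟨π', hker', hmem', hsur'⟩ := MTwentyFourSylow.exists_proj24 hD' hprim' ht' hd'
  have hsep : ∀ {x y : Subgroup.centralizer ({d} : Set G)}, π x = π y → ε x = ε y → x = y := by
    intro x y h1 h2
    rcases (hker (x * y⁻¹)).1 (by rw [map_mul, map_inv, h1, mul_inv_cancel]) with h | h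
    · exact Subtype.ext (mul_inv_eq_one.1 h)
    · exfalso
      have h3 : ε ((x : G) * (y : G)⁻¹) = -1 := (congrArg ε h).trans (hε d hd)
      rw [map_mul, map_inv, h2, mul_inv_cancel] at h3
      exact absurd h3 (by decide)
  have hsep' : ∀ {x y : Subgroup.centralizer ({d'} : Set G')}, π' x = π' y → ε' x = ε' y → x = y := by
    intro x y h1 h2
    rcases (hker' (x * y⁻¹)).1 (by rw [map_mul, map_inv, h1, mul_inv_cancel]) with h | h
    · exact Subtype.ext (mul_inv_eq_one.1 h)
    · exfalso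
      have h3 : ε' ((x : G') * (y : G')⁻¹) = -1 := (congrArg ε' h).trans (hε' d' hd')
      rw [map_mul, map_inv, h2, mul_inv_cancel] at h3
      exact absurd h3 (by decide)
  have hlift : ∀ (q : Subgroup.closure (perp D' d') ⧸ Subgroup.center (Subgroup.closure (perp D' d'))) (σ : ℤˣ),
      ∃ x : Subgroup.centralizer ({d'} : Set G'), π' x = q ∧ ε' x = σ := by
    intro q σ
    obtain ⟨x, hx⟩ : ∃ x, π' x = q := by
      refine MonoidHom.mem_range.1 ?_
      have : π'.range = ⊤ := by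
        rw [eq_top_iff, ← (TypeTwentyFour.good_at hD' hprim' ht' hd').tt.2.2, Subgroup.closure_le]
        intro p hp
        obtain ⟨z, -, rfl⟩ := hsur' p hp
        exact ⟨z, rfl⟩
      exact this ▸ Subgroup.mem_top q
    by_cases h : ε' x = σ
    · exact ⟨x, hx, h⟩
    · refine ⟨x * ⟨d', Subgroup.mem_centralizer_singleton_iff.2 rfl⟩, ?_, ?_⟩
      · rw [map_mul, (hker' ⟨d', Subgroup.mem_centralizer_singleton_iff.2 rfl⟩).2 (Or.inr rfl), mul_one, hx]
      · rw [Subgroup.coe_mul, map_mul, hε' d' hd']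
        rcases Int.units_eq_one_or (ε' x) with k | k <;> rcases Int.units_eq_one_or σ with l | l <;>
          rw [k, l] at h ⊢ <;> first | exact absurd rfl h | decide
  have hliftd : ∀ (q : Subgroup.closure (perp D d) ⧸ Subgroup.center (Subgroup.closure (perp D d))) (σ : ℤˣ),
      ∃ x : Subgroup.centralizer ({d} : Set G), π x = q ∧ ε x = σ := by
    intro q σ
    obtain ⟨x, hx⟩ : ∃ x, π x = q := by
      refine MonoidHom.mem_range.1 ?_
      have : π.range = ⊤ := by
        rw [eq_top_iff, ← (TypeTwentyFour.good_at hD hprim ht hd).tt.2.2, Subgroup.closure_le]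
        intro p hp
        obtain ⟨z, -, rfl⟩ := hsur p hp
        exact ⟨z, rfl⟩
      exact this ▸ Subgroup.mem_top q
    by_cases h : ε x = σ
    · exact ⟨x, hx, h⟩
    · refine ⟨x * ⟨d, Subgroup.mem_centralizer_singleton_iff.2 rfl⟩, ?_, ?_⟩
      · rw [map_mul, (hker ⟨d, Subgroup.mem_centralizer_singleton_iff.2 rfl⟩).2 (Or.inr rfl), mul_one, hx]
      · rw [Subgroup.coe_mul, map_mul, hε d hd]
        rcases Int.units_eq_one_or (ε x) with k | k <;> rcases Int.units_eq_one_or σ with l | l <;>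
          rw [k, l] at h ⊢ <;> first | exact absurd rfl h | decide
  choose f hf1 hf2 using fun x : Subgroup.centralizer ({d} : Set G) => hlift (e (π x)) (ε x)
  have hfuniq : ∀ {x : Subgroup.centralizer ({d} : Set G)} {y : Subgroup.centralizer ({d'} : Set G')},
      π' y = e (π x) → ε' y = ε x → f x = y := fun h1 h2 =>
    hsep' ((hf1 _).trans h1.symm) ((hf2 _).trans h2.symm)
  have hcd : ∀ {x : G}, Commute x d → x ∈ Subgroup.centralizer ({d} : Set G) := fun h =>
    Subgroup.mem_centralizer_singleton_iff.2 h.eq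
  have hcm : ∀ x : Subgroup.centralizer ({d'} : Set G'), Commute (x : G') d' := fun x =>
    Subgroup.mem_centralizer_singleton_iff.1 x.2
  have hperp : ∀ {x : Subgroup.centralizer ({d} : Set G)}, (x : G) ∈ perp D d →
      ((f x : Subgroup.centralizer ({d'} : Set G')) : G') ∈ D' := by
    intro x hx
    obtain ⟨z, hz, hzx⟩ := hsur' (e (π x)) (he ▸ ⟨_, hmem x hx, rfl⟩)
    rw [hfuniq hzx ((hε' _ hz.1).trans (hε _ hx.1).symm)]
    exact hz.1
  have hd1 : f ⟨d, hcd (Commute.refl d)⟩ = ⟨d', Subgroup.mem_centralizer_singleton_iff.2 rfl⟩ := by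
    refine hfuniq ?_ ((hε' d' hd').trans (hε d hd).symm)
    rw [(hker' _).2 (Or.inr rfl), (hker _).2 (Or.inr rfl), map_one]
  refine ⟨fun x => if h : x ∈ Subgroup.centralizer ({d} : Set G) then ((f ⟨x, h⟩ :
    Subgroup.centralizer ({d'} : Set G')) : G') else 1, fun x hx => ?_, fun x y hx hy => ?_,
    fun x y hx hy k => ?_, fun x' hx => ?_, fun x hx => ?_, ?_⟩
  · simp only [dif_pos (hcd hx)]
    exact hcm _
  · simp only [dif_pos (hcd hx), dif_pos (hcd hy), dif_pos (hcd (hx.mul_left hy))]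
    refine congrArg Subtype.val (hfuniq (y := f ⟨x, hcd hx⟩ * f ⟨y, hcd hy⟩) ?_ ?_)
    · rw [map_mul, hf1, hf1, ← map_mul, ← map_mul]
      rfl
    · rw [Subgroup.coe_mul, map_mul, hf2, hf2, ← map_mul]
  · simp only [dif_pos (hcd hx), dif_pos (hcd hy)] at k
    have k' := Subtype.ext k
    refine congrArg Subtype.val (hsep (x := ⟨x, hcd hx⟩) (y := ⟨y, hcd hy⟩) (e.injective ?_) ?_)
    · rw [← hf1, ← hf1, k']
    · rw [← hf2, ← hf2, k']
  · obtain ⟨x, hx1, hx2⟩ := hliftd (e.symm (π' ⟨x', Subgroup.mem_centralizer_singleton_iff.2 hx.eq⟩)) (ε' x')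
    refine ⟨x, Subgroup.mem_centralizer_singleton_iff.1 x.2, ?_⟩
    simp only [dif_pos x.2]
    refine congrArg Subtype.val (hfuniq (y := ⟨x', Subgroup.mem_centralizer_singleton_iff.2 hx.eq⟩) ?_ hx2.symm)
    rw [hx1, e.apply_symm_apply]
  · simp only [dif_pos (hcd hx)]
    constructor
    · intro k
      by_cases hxd : f ⟨x, hcd hx⟩ = f ⟨d, hcd (Commute.refl d)⟩
      · have : (⟨x, hcd hx⟩ : Subgroup.centralizer ({d} : Set G)) = ⟨d, hcd (Commute.refl d)⟩ :=
          hsep (e.injective (by rw [← hf1, ← hf1, hxd])) (by rw [← hf2, ← hf2, hxd])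
        rw [show x = d from congrArg Subtype.val this]
        exact hd
      · have hp : ((f ⟨x, hcd hx⟩ : Subgroup.centralizer ({d'} : Set G')) : G') ∈ perp D' d' :=
          ⟨k, fun c => hxd (by rw [hd1]; exact Subtype.ext c), (hcm _).symm⟩
        obtain ⟨q, hq, hqe⟩ : π' (f ⟨x, hcd hx⟩) ∈ e '' imageSet D d (Subgroup.closure (perp D d)) :=
          he.symm ▸ hmem' _ hp
        obtain ⟨z, hz, rfl⟩ := hsur q hq
        have : (⟨x, hcd hx⟩ : Subgroup.centralizer ({d} : Set G)) = z :=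
          hsep (e.injective (by rw [← hf1, ← hqe]))
            (by rw [← hf2, hε' _ k, hε _ hz.1])
        rw [show x = (z : G) from congrArg Subtype.val this]
        exact hz.1
    · intro k
      by_cases hxd : x = d
      · subst hxd
        rw [hd1]
        exact hd'
      · exact hperp (x := ⟨x, hcd hx⟩) ⟨k, hxd, hx.symm⟩
  · simp only [dif_pos (hcd (Commute.refl d))]
    exact congrArg Subtype.val hd1

end CfsgLib.Fischer.UniqueTwentyFour
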